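import Mathlib
import Cfsg.Agent.Classical.UnitMono.Siegel
import Cfsg.Agent.Classical.UnitMono.Solve

/-!
A non-monomial element fixing an axis yields a centre of transvections orthogonal to that axis.
-/

set_option autoImplicit false

namespace CfsgLib.UnitMono91

open Matrix CfsgLib.UnitMono CfsgLib.TransvGL CfsgLib.MonoBasics CfsgLib.UnitCentres CfsgLib.PseudoRefl
  CfsgLib.CircleSums

variable {ι : Type} [Fintype ι] [DecidableEq ι] {F : Type*} [Field F] [Fintype F]
variable {q : ℕ} {σ : F ≃+* F} {M : Subgroup (GL ι F)}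

local notation "ax" i:max => (Pi.single i (1 : F) : ι → F)

theorem uRefl_smul (hS : Std q σ) {u : ι → F} (hu : sf σ u u = 1) {c : F} (hc : Cir σ c)
    (hcu : sf σ (c • u) (c • u) = 1) (δ : Fˣ) : uRefl hS hcu δ = uRefl hS hu δ := by
  have hf := hS.isUnitary (ι := ι)
  refine ext_mulVec fun x => ?_
  rw [uRefl_mulVec, uRefl_mulVec, smul_right hf, smul_smul]
  congr 2
  linear_combination ((δ : F) - 1) * sf σ x u * (id hc : c * σ c = 1)

/-- `M` contains the pseudo-reflections in `u` compensated along the axis `a`. -/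
def Pc (hS : Std q σ) (M : Subgroup (GL ι F)) (a : ι) (u : ι → F) : Prop :=
  ∃ hu : sf σ u u = 1, u a = 0 ∧
    ∀ ε : Fˣ, Cir σ (ε : F) → uRefl hS hu ε * uRefl hS (sf_ax_self a) ε⁻¹ ∈ M

variable (hO : Over q σ M) {a : ι}
include hO

theorem _root_.CfsgLib.UnitMono.Over.dg_fix91 (t : ι → Fˣ) (ht : ∀ i, Cir σ (t i : F)) (a : ι) :
    ∃ g ∈ M, (∃ c : F, Cir σ c ∧ (g : Matrix ι ι F) *ᵥ ax a = c • ax a) ∧
      ∀ x i, i ≠ a → ((g : Matrix ι ι F) *ᵥ x) i = (t i : F) * x i := by
  classical
  set t' : ι → Fˣ := Function.update t a (∏ i ∈ Finset.univ.erase a, t i)⁻¹ with ht'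
  have hc : ∀ i, Cir σ (t' i : F) := fun i => by
    by_cases h : i = a
    · subst h
      rw [ht', Function.update_self, Units.val_inv_eq_inv_val]
      exact (cir_prod _ _ fun j _ => ht j).inv
    · rw [ht', Function.update_of_ne h]; exact ht i
  refine ⟨dg t', hO.dg_mem hc ?_, ⟨(t' a : F), hc a, dg_mulVec_ax t' a⟩, fun x i hi => ?_⟩
  · rw [← Finset.mul_prod_erase Finset.univ t' (Finset.mem_univ a), ht', Function.update_self,
      Finset.prod_congr rfl fun i hi => Function.update_of_ne (Finset.ne_of_mem_erase hi) _ _,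
      inv_mul_cancel]
  · rw [dg_mulVec, ht', Function.update_of_ne hi]

theorem Pc.axis {j : ι} (hj : j ≠ a) : Pc hO.std M a (ax j) := by
  refine ⟨sf_ax_self j, by simp [Ne.symm hj], fun ε hε => ?_⟩
  convert hO.torPair_mem hj hε using 1
  refine ext_mulVec fun x => funext fun i => ?_
  rw [Units.val_mul, ← mulVec_mulVec, uRefl_ax_mulVec, uRefl_ax_mulVec, dg_mulVec]
  unfold torPair
  rcases eq_or_ne i j with rfl | hij
  · simp [hj]
  · split_ifs <;> simp_all

theorem Pc.image {u : ι → F} (h : Pc hO.std M a u) {g : GL ι F} (hg : g ∈ M) {c : F} (hc : Cir σ c)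
    (hga : (g : Matrix ι ι F) *ᵥ ax a = c • ax a) : Pc hO.std M a ((g : Matrix ι ι F) *ᵥ u) := by
  obtain ⟨hu, hua, hP⟩ := h
  have hgi := hO.iso g hg
  have hgu : sf σ ((g : Matrix ι ι F) *ᵥ u) ((g : Matrix ι ι F) *ᵥ u) = 1 := by rw [hgi, hu]
  refine ⟨hgu, ?_, fun ε hε => ?_⟩
  · have h1 := hgi u (ax a)
    rw [hga, smul_right hO.std.isUnitary, sf_ax_right, sf_ax_right, hua] at h1
    exact (mul_eq_zero.1 h1).resolve_left (by simpa using hc.ne_zero)
  · have e := conj_uRefl hO.std hgi hu ε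
    have e' := conj_uRefl hO.std hgi (sf_ax_self a) ε⁻¹
    have e'' : g * uRefl hO.std (sf_ax_self a) ε⁻¹ * g⁻¹ = uRefl hO.std (sf_ax_self a) ε⁻¹ := by
      rw [e']
      refine ext_mulVec fun x => ?_
      rw [uRefl_mulVec, hga, uRefl_mulVec, smul_right hO.std.isUnitary, smul_smul]
      congr 2
      linear_combination (((ε⁻¹ : Fˣ) : F) - 1) * sf σ x (ax a) * (id hc : c * σ c = 1)
    rw [← e, ← e'',
      show g * uRefl hO.std hu ε * g⁻¹ * (g * uRefl hO.std (sf_ax_self a) ε⁻¹ * g⁻¹) =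
        g * (uRefl hO.std hu ε * uRefl hO.std (sf_ax_self a) ε⁻¹) * g⁻¹ by group]
    exact M.mul_mem (M.mul_mem hg (hP ε hε)) (M.inv_mem hg)

theorem Pc.reflect {u u' : ι → F} (h : Pc hO.std M a u) (h' : Pc hO.std M a u') {ε : Fˣ}
    (hε : Cir σ (ε : F)) : Pc hO.std M a (u' + (((ε : F) - 1) * sf σ u' u) • u) := by
  obtain ⟨hu, hua, hP⟩ := h
  have hxa : ((uRefl hO.std hu ε * uRefl hO.std (sf_ax_self a) ε⁻¹ : GL ι F) : Matrix ι ι F) *ᵥ ax a =
      (ε : F)⁻¹ • ax a := by
    rw [Units.val_mul, ← mulVec_mulVec, uRefl_mulVec hO.std (sf_ax_self a), sf_ax_self, mul_one,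
      mulVec_add, mulVec_smul, uRefl_mulVec, sf_ax_left, hua, map_zero, mul_zero, zero_smul, add_zero,
      Units.val_inv_eq_inv_val]
    module
  have := h'.image hO (hP ε hε) hε.inv hxa
  obtain ⟨_, hu'a, -⟩ := h'
  rwa [Units.val_mul, ← mulVec_mulVec, uRefl_mulVec hO.std (sf_ax_self a), sf_ax_right, hu'a, mul_zero,
    zero_smul, add_zero, uRefl_mulVec] at this

variable (hn : 10 ≤ Fintype.card ι)
include hn

theorem exists_wide {h : GL ι F} (hh : h ∈ M) (hnm : ¬ IsMono h) {c : F}
    (hha : (h : Matrix ι ι F) *ᵥ ax a = c • ax a) :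
    ∃ u, Pc hO.std M a u ∧ ∃ S : Finset ι, 5 ≤ S.card ∧ ∀ i, i ∈ S ↔ u i ≠ 0 := by
  classical
  have hf := hO.std.isUnitary (ι := ι)
  have hcc : Cir σ c := by
    have := hO.iso h hh (ax a) (ax a)
    rwa [hha, hf.smul_left, smul_right hf, sf_ax_self, mul_one] at this
  set sp : (ι → F) → Finset ι := fun u => Finset.univ.filter fun i => u i ≠ 0 with hsp
  set U := Finset.univ.filter fun u => Pc hO.std M a u with hU
  haveI : Nonempty ι := ⟨a⟩
  obtain ⟨i, hi⟩ : ∃ i, ∀ k, (h : Matrix ι ι F) *ᵥ ax i ∉ Submodule.span F {ax k} := by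
    by_contra hc
    push Not at hc
    exact hnm hc
  have hia : i ≠ a := fun e => hi a (by rw [e, hha]; exact Submodule.smul_mem _ _ (Submodule.mem_span_singleton_self _))
  have hu0 : Pc hO.std M a ((h : Matrix ι ι F) *ᵥ ax i) := (Pc.axis hO hia).image hO hh hcc hha
  have h2 : 2 ≤ (sp ((h : Matrix ι ι F) *ᵥ ax i)).card := by
    by_contra hlt
    push Not at hlt
    obtain ⟨k, hk⟩ := Finset.card_le_one_iff_subset_singleton.1 (Nat.lt_succ_iff.1 hlt)
    refine hi k (mem_axis_iff.2 fun j hj => ?_)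
    by_contra hne
    exact hj (Finset.mem_singleton.1 (hk (Finset.mem_filter.2 ⟨Finset.mem_univ _, hne⟩)))
  obtain ⟨u, huU, humax⟩ := Finset.exists_max_image U (fun u => (sp u).card)
    ⟨_, Finset.mem_filter.2 ⟨Finset.mem_univ _, hu0⟩⟩
  have hu : Pc hO.std M a u := (Finset.mem_filter.1 huU).2
  have hs2 : 2 ≤ (sp u).card := h2.trans (humax _ (Finset.mem_filter.2 ⟨Finset.mem_univ _, hu0⟩))
  refine ⟨u, hu, sp u, ?_, fun i => by simp [hsp]⟩
  by_contra hlt
  push Not at hlt
  obtain ⟨huu, hua, -⟩ := hu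
  obtain ⟨ε0, hε0, hε2⟩ := exists_cir_sq_ne_one hO.std.card hO.std.frob
  set ε : Fˣ := Units.mk0 ε0 hε0.ne_zero with hε
  have hεi : Cir σ ((ε⁻¹ : Fˣ) : F) := by rw [Units.val_inv_eq_inv_val]; exact hε0.inv
  have hpick : ∀ T : Finset ι, T.card ≤ 2 → ∃ p, p ∉ sp u ∧ p ≠ a ∧ p ∉ T := by
    intro T hT
    obtain ⟨p, -, hp⟩ := Finset.exists_mem_notMem_of_card_lt_card (s := sp u ∪ T ∪ {a})
      (t := (Finset.univ : Finset ι)) (by
        have := Finset.card_union_le (sp u ∪ T) {a}
        have := Finset.card_union_le (sp u) T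
        rw [Finset.card_singleton] at *
        rw [Finset.card_univ]
        omega)
    simp only [Finset.mem_union, Finset.mem_singleton, not_or] at hp
    exact ⟨p, hp.1.1, hp.2, hp.1.2⟩
  have hne1 : (ε : F) ≠ 1 := fun e => hε2 (by rw [show ε0 = 1 from e, one_pow])
  by_cases hN : ∃ i ∈ sp u, u i * σ (u i) ≠ 1
  · obtain ⟨i, hi, hNi⟩ := hN
    have hiu : u i ≠ 0 := (Finset.mem_filter.1 hi).2
    have hia : i ≠ a := fun e => hiu (e ▸ hua)
    obtain ⟨p, hp, hpa, -⟩ := hpick ∅ (by simp)
    have hup : u p = 0 := by simpa [hsp] using hp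
    have hip : i ≠ p := fun e => hiu (e ▸ hup)
    obtain ⟨g, hg, s, hs, hgj⟩ := hO.exists_perm (Equiv.swap i p) a
    have hga : (g : Matrix ι ι F) *ᵥ ax a = (s : F) • ax a := by
      rw [hgj, if_pos rfl, Equiv.swap_apply_of_ne_of_ne (Ne.symm hia) (Ne.symm hpa)]
    set u' := (g : Matrix ι ι F) *ᵥ u with hu'
    have hPu' : Pc hO.std M a u' :=
      (show Pc hO.std M a u from (Finset.mem_filter.1 huU).2).image hO hg hs hga
    have hu'e : u' = u - u i • ax i + u i • ax p := by
      rw [hu', ← Finset.univ_sum_single u, mulVec_sum, Finset.univ_sum_single u]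
      funext j
      rw [Finset.sum_apply]
      have : ∀ k, ((g : Matrix ι ι F) *ᵥ Pi.single k (u k)) j =
          u k * (ax (Equiv.swap i p k)) j := fun k => by
        rw [show Pi.single k (u k) = u k • ax k by simp [← Pi.single_smul'], mulVec_smul, hgj]
        by_cases hk : k = a
        · subst hk; simp [hua]
        · simp [hk]
      simp only [this]
      rw [Finset.sum_eq_single (Equiv.swap i p j) (fun k _ hk => by
        rw [Pi.single_eq_of_ne (fun e => hk (by rw [e, Equiv.swap_apply_self])), mul_zero]) (by simp),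
        Equiv.swap_apply_self, Pi.single_eq_same, mul_one]
      rcases eq_or_ne j i with rfl | hji
      · simp [hup, hip]
      rcases eq_or_ne j p with rfl | hjp
      · simp [hup, Ne.symm hip]
      · simp [Equiv.swap_apply_of_ne_of_ne hji hjp, hji, hjp]
    have hK : sf σ u' u = 1 - u i * σ (u i) := by
      rw [hu'e, hf.add_left, UnitCentres.sub_left hf, hf.smul_left, hf.smul_left, huu, sf_ax_left,
        sf_ax_left, hup, map_zero, mul_zero, add_zero]
    set K := 1 - u i * σ (u i)
    have hK0 : K ≠ 0 := sub_ne_zero.2 (Ne.symm hNi)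
    obtain ⟨δ, hδ, hδ1, hδK⟩ : ∃ δ : Fˣ, Cir σ (δ : F) ∧ (δ : F) ≠ 1 ∧ 1 + ((δ : F) - 1) * K ≠ 0 := by
      by_cases h1 : 1 + ((ε : F) - 1) * K = 0
      · refine ⟨ε⁻¹, hεi, ?_, fun h2 => ?_⟩
        · rw [Units.val_inv_eq_inv_val]; exact fun e => hne1 (inv_eq_one.1 e)
        · have h3 : ((ε : F) - ((ε⁻¹ : Fˣ) : F)) * K = 0 := by linear_combination h1 - h2
          refine hε2 ?_
          rw [Units.val_inv_eq_inv_val] at h3
          have h4 := sub_eq_zero.1 ((mul_eq_zero.1 h3).resolve_right hK0)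
          have := hε0.ne_zero
          show (ε : F) ^ 2 = 1
          rw [sq]
          nth_rewrite 2 [h4]
          exact mul_inv_cancel₀ this
      · exact ⟨ε, hε0, hne1, h1⟩
    have hv := Pc.reflect hO (show Pc hO.std M a u from (Finset.mem_filter.1 huU).2) hPu' hδ
    rw [hK] at hv
    set v := u' + (((δ : F) - 1) * K) • u
    have hsub : insert p (sp u) ⊆ sp v := by
      intro j hj
      refine Finset.mem_filter.2 ⟨Finset.mem_univ _, ?_⟩
      simp only [v, hu'e, Pi.add_apply, Pi.sub_apply, Pi.smul_apply, smul_eq_mul]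
      rcases Finset.mem_insert.1 hj with rfl | hj
      · simp [hup, Ne.symm hip, hiu]
      · have huj : u j ≠ 0 := (Finset.mem_filter.1 hj).2
        have hjp : j ≠ p := fun e => huj (e ▸ hup)
        rcases eq_or_ne j i with rfl | hji
        · simp [hjp, hiu, hK0, sub_ne_zero.2 hδ1]
        · simp [hjp, hji]
          intro h0
          exact hδK ((mul_eq_zero.1 (show (1 + ((δ : F) - 1) * K) * u j = 0 by
            linear_combination h0)).resolve_right huj)
    have h3 := Finset.card_le_card hsub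
    rw [Finset.card_insert_of_notMem hp] at h3
    have h4 := humax v (Finset.mem_filter.2 ⟨Finset.mem_univ _, hv⟩)
    omega
  · push Not at hN
    obtain ⟨i, hi, i', hi', hii'⟩ := Finset.one_lt_card.1 (show 1 < (sp u).card by omega)
    have hiu : u i ≠ 0 := (Finset.mem_filter.1 hi).2
    have hiu' : u i' ≠ 0 := (Finset.mem_filter.1 hi').2
    have hia : i ≠ a := fun e => hiu (e ▸ hua)
    have hia' : i' ≠ a := fun e => hiu' (e ▸ hua)
    obtain ⟨p, hp, hpa, -⟩ := hpick ∅ (by simp)
    obtain ⟨p', hp', hpa', hpp⟩ := hpick {p} (by simp)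
    rw [Finset.mem_singleton] at hpp
    have hup : u p = 0 := by simpa [hsp] using hp
    have hup' : u p' = 0 := by simpa [hsp] using hp'
    have hip : i ≠ p := fun e => hiu (e ▸ hup)
    have hip' : i ≠ p' := fun e => hiu (e ▸ hup')
    have hi'p : i' ≠ p := fun e => hiu' (e ▸ hup)
    have hi'p' : i' ≠ p' := fun e => hiu' (e ▸ hup')
    set π := (Equiv.swap i p).trans (Equiv.swap i' p')
    have hπa : π a = a := by
      simp [π, Equiv.swap_apply_of_ne_of_ne (Ne.symm hia) (Ne.symm hpa),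
        Equiv.swap_apply_of_ne_of_ne (Ne.symm hia') (Ne.symm hpa')]
    obtain ⟨g, hg, s, hs, hgj⟩ := hO.exists_perm π a
    have hga : (g : Matrix ι ι F) *ᵥ ax a = (s : F) • ax a := by rw [hgj, if_pos rfl, hπa]
    set u' := (g : Matrix ι ι F) *ᵥ u with hu'
    have hPu' : Pc hO.std M a u' :=
      (show Pc hO.std M a u from (Finset.mem_filter.1 huU).2).image hO hg hs hga
    have hu'e : u' = u - u i • ax i - u i' • ax i' + u i • ax p + u i' • ax p' := by
      rw [hu', ← Finset.univ_sum_single u, mulVec_sum, Finset.univ_sum_single u]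
      funext j
      rw [Finset.sum_apply]
      have : ∀ k, ((g : Matrix ι ι F) *ᵥ Pi.single k (u k)) j = u k * (ax (π k)) j := fun k => by
        rw [show Pi.single k (u k) = u k • ax k by simp [← Pi.single_smul'], mulVec_smul, hgj]
        by_cases hk : k = a
        · subst hk; simp [hua]
        · simp [hk]
      simp only [this]
      rw [Finset.sum_eq_single (π.symm j) (fun k _ hk => by
        rw [Pi.single_eq_of_ne (fun e => hk (by rw [e, Equiv.symm_apply_apply])), mul_zero]) (by simp),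
        Equiv.apply_symm_apply, Pi.single_eq_same, mul_one]
      simp only [π, Equiv.symm_trans_apply, Equiv.symm_swap]
      rcases eq_or_ne j i with rfl | hji
      · simp [Equiv.swap_apply_of_ne_of_ne hii' hip', hup, hup', hip, hip', hii']
      rcases eq_or_ne j i' with rfl | hji'
      · simp [Equiv.swap_apply_of_ne_of_ne (Ne.symm hip') hpp, hup', hi'p, hi'p', Ne.symm hii']
      rcases eq_or_ne j p with rfl | hjp
      · simp [Equiv.swap_apply_of_ne_of_ne hji' (Ne.symm hpp), hup, hji, hji', Ne.symm hpp]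
      rcases eq_or_ne j p' with rfl | hjp'
      · simp [Equiv.swap_apply_of_ne_of_ne (Ne.symm hii') hi'p, hup', hji, hji', hjp]
      · simp [Equiv.swap_apply_of_ne_of_ne hji' hjp', Equiv.swap_apply_of_ne_of_ne hji hjp, hji, hji',
          hjp, hjp']
    have hK : sf σ u' u = -1 := by
      rw [hu'e, hf.add_left, hf.add_left, UnitCentres.sub_left hf, UnitCentres.sub_left hf,
        hf.smul_left, hf.smul_left, hf.smul_left, hf.smul_left, huu, sf_ax_left, sf_ax_left, sf_ax_left,
        sf_ax_left, hup, hup', map_zero, hN i hi, hN i' hi']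
      ring
    have hv := Pc.reflect hO (show Pc hO.std M a u from (Finset.mem_filter.1 huU).2) hPu' (ε := ε) hε0
    rw [hK] at hv
    set v := u' + (((ε : F) - 1) * (-1)) • u
    have hε3 : (2 : F) - (ε : F) ≠ 0 := fun e => hε2 (by
      have e' : (2 : F) - ε0 = 0 := e
      have e2 : ε0 = 2 := by linear_combination -e'
      have h4 : ε0 * σ ε0 = 1 := hε0
      rw [e2, map_ofNat] at h4
      rw [e2]
      linear_combination h4)
    have hsub : insert p (sp u) ⊆ sp v := by
      intro j hj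
      refine Finset.mem_filter.2 ⟨Finset.mem_univ _, ?_⟩
      simp only [v, hu'e, Pi.add_apply, Pi.sub_apply, Pi.smul_apply, smul_eq_mul]
      rcases Finset.mem_insert.1 hj with rfl | hj
      · simp [hup, Ne.symm hip, Ne.symm hi'p, hiu, Ne.symm hpp]
      · have huj : u j ≠ 0 := (Finset.mem_filter.1 hj).2
        have hjp : j ≠ p := fun e => huj (e ▸ hup)
        have hjp' : j ≠ p' := fun e => huj (e ▸ hup')
        rcases eq_or_ne j i with rfl | hji
        · simp [hjp, hjp', hii', hiu, sub_ne_zero.2 hne1, sub_ne_zero.2 (Ne.symm hne1)]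
        rcases eq_or_ne j i' with rfl | hji'
        · simp [hjp, hjp', hji, hiu', sub_ne_zero.2 hne1, sub_ne_zero.2 (Ne.symm hne1)]
        · simp [hjp, hjp', hji, hji']
          intro h0
          exact hε3 ((mul_eq_zero.1 (show ((2 : F) - (ε : F)) * u j = 0 by
            linear_combination h0)).resolve_right huj)
    have h3 := Finset.card_le_card hsub
    rw [Finset.card_insert_of_notMem hp] at h3
    have h4 := humax v (Finset.mem_filter.2 ⟨Finset.mem_univ _, hv⟩)
    omega

/-- A centre orthogonal to the axis `a`; of support four when `q = 2`. -/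
theorem exists_centre {h : GL ι F} (hh : h ∈ M) (hnm : ¬ IsMono h) {c : F}
    (hha : (h : Matrix ι ι F) *ᵥ ax a = c • ax a) :
    ∃ w, Centre hO.std.isUnitary M w ∧ w a = 0 ∧ w ≠ 0 ∧
      (q = 2 → ∃ T : Finset ι, T.card = 4 ∧ ∀ i, i ∈ T ↔ w i ≠ 0) := by
  classical
  have hf := hO.std.isUnitary (ι := ι)
  obtain ⟨u, hPu, S, hS5, hS⟩ := exists_wide hO hn hh hnm hha
  obtain ⟨huu, hua, -⟩ := id hPu
  obtain ⟨T, hTS, hT4⟩ := Finset.exists_subset_card_eq (s := S) (n := 4) (by omega)
  obtain ⟨i0, hi0, hi0T⟩ := Finset.exists_mem_notMem_of_card_lt_card (s := T) (t := S) (by omega)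
  obtain ⟨ε0, hε0, hε2⟩ := exists_cir_sq_ne_one hO.std.card hO.std.frob
  set N : ι → F := fun i => u i * σ (u i) with hN
  have hN0 : ∀ i ∈ T, N i ≠ 0 := fun i hi => by
    have := (hS i).1 (hTS hi)
    exact mul_ne_zero this (by simpa using this)
  obtain ⟨t, htc, htsum, htne, htq⟩ : ∃ t : ι → Fˣ, (∀ i, Cir σ (t i : F)) ∧ ∑ i, (t i : F) * N i = 1 ∧
      (∃ i ∈ S, (t i : F) ≠ 1) ∧ (q = 2 → ∀ i, ((t i : F) ≠ 1 ↔ i ∈ T)) := by
    obtain ⟨x1, x2, x3, x4, hne12, hne13, hne14, hne23, hne24, hne34, hTe⟩ := Finset.card_eq_four.1 hT4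
    by_cases hq : q = 2
    · have hσ2 : ∀ z, σ z = z ^ 2 := fun z => by rw [hO.std.frob, hq]
      have hN1 : ∀ i ∈ T, N i = 1 := fun i hi => by
        have h0 : N i ^ 2 = N i := by rw [← hσ2]; exact norm_fixed hO.std.card hO.std.frob _
        have : N i * (N i - 1) = 0 := by linear_combination h0
        exact sub_eq_zero.1 ((mul_eq_zero.1 this).resolve_left (hN0 i hi))
      have h20 : (2 : F) = 0 := by
        have h4 : Fintype.card F = 4 := by rw [hO.std.card, hq]; norm_num
        have h5 := Nat.cast_card_eq_zero F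
        rw [h4] at h5
        push_cast at h5
        exact pow_eq_zero_iff (show 2 ≠ 0 by norm_num) |>.1 (by linear_combination h5)
      let t : ι → Fˣ := fun i => if i = x1 ∨ i = x2 then Units.mk0 ε0 hε0.ne_zero
        else if i = x3 ∨ i = x4 then (Units.mk0 ε0 hε0.ne_zero)⁻¹ else 1
      refine ⟨t, fun i => ?_, ?_, ⟨x1, hTS (by simp [hTe]), ?_⟩, fun _ i => ?_⟩
      · simp only [t]
        split_ifs
        · exact hε0
        · rw [Units.val_inv_eq_inv_val]; exact hε0.inv
        · exact cir_one σ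
      · have h1 : ∑ i, N i = 1 := huu
        have h2 : ∑ i, ((t i : F) - 1) * N i = 0 := by
          rw [← Finset.sum_subset (Finset.subset_univ T) fun i _ hi => by
            rw [hTe] at hi
            simp only [Finset.mem_insert, Finset.mem_singleton, not_or] at hi
            simp [t, hi.1, hi.2.1, hi.2.2.1, hi.2.2.2]]
          rw [Finset.sum_congr rfl fun i hi => by rw [hN1 i hi, mul_one], hTe,
            Finset.sum_insert (by simp [hne12, hne13, hne14]), Finset.sum_insert (by simp [hne23, hne24]),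
            Finset.sum_insert (by simp [hne34]), Finset.sum_singleton]
          simp [t, Ne.symm hne12, Ne.symm hne13, Ne.symm hne14, Ne.symm hne23, Ne.symm hne24]
          linear_combination ((ε0 - 1) + (ε0⁻¹ - 1)) * h20
        rw [← h1, ← sub_eq_zero, ← Finset.sum_sub_distrib, ← h2]
        exact Finset.sum_congr rfl fun i _ => by ring
      · simp [t]
        exact fun e => hε2 (by rw [e, one_pow])
      · rw [hTe]
        simp only [t, Finset.mem_insert, Finset.mem_singleton]
        have e1 : ε0 ≠ 1 := fun e => hε2 (by rw [e, one_pow])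
        split_ifs with h1 h2
        · simp only [Units.val_mk0]; tauto
        · simp only [Units.val_inv_eq_inv_val, Units.val_mk0, ne_eq, inv_eq_one]; tauto
        · simp only [Units.val_one]; tauto
    · set R := 1 - ε0 * N i0 - ∑ i ∈ Finset.univ \ insert i0 T, N i
      obtain ⟨y1, y2, y3, y4, h1, h2, h3, h4, h⟩ := four_sum hO.std.card hO.std.frob
        (hN0 x1 (by simp [hTe])) (hN0 x2 (by simp [hTe])) (hN0 x3 (by simp [hTe]))
        (hN0 x4 (by simp [hTe])) R
      let t : ι → Fˣ := fun i => if i = x1 then Units.mk0 y1 h1.ne_zero else if i = x2 then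
        Units.mk0 y2 h2.ne_zero else if i = x3 then Units.mk0 y3 h3.ne_zero else if i = x4 then
        Units.mk0 y4 h4.ne_zero else if i = i0 then Units.mk0 ε0 hε0.ne_zero else 1
      have hi0x : i0 ≠ x1 ∧ i0 ≠ x2 ∧ i0 ≠ x3 ∧ i0 ≠ x4 := by
        rw [hTe] at hi0T
        simpa only [Finset.mem_insert, Finset.mem_singleton, not_or] using hi0T
      refine ⟨t, fun i => ?_, ?_, ⟨i0, hi0, ?_⟩, fun h => absurd h hq⟩
      · simp only [t]
        split_ifs
        exacts [h1, h2, h3, h4, hε0, cir_one σ]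
      · rw [← Finset.sum_sdiff (Finset.subset_univ (insert i0 T)), Finset.sum_insert hi0T]
        have e1 : ∑ i ∈ Finset.univ \ insert i0 T, (t i : F) * N i =
            ∑ i ∈ Finset.univ \ insert i0 T, N i := by
          refine Finset.sum_congr rfl fun i hi => ?_
          rw [hTe] at hi
          simp only [Finset.mem_sdiff, Finset.mem_insert, Finset.mem_singleton, not_or] at hi
          simp [t, hi.2.1, hi.2.2.1, hi.2.2.2.1, hi.2.2.2.2.1, hi.2.2.2.2.2]
        rw [e1, hTe, Finset.sum_insert (by simp [hne12, hne13, hne14]),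
          Finset.sum_insert (by simp [hne23, hne24]),
          Finset.sum_insert (by simp [hne34]), Finset.sum_singleton]
        simp [t, hi0x.1, hi0x.2.1, hi0x.2.2.1, hi0x.2.2.2, Ne.symm hne12, Ne.symm hne13, Ne.symm hne14,
          Ne.symm hne23, Ne.symm hne24, Ne.symm hne34]
        have hdec : ∑ i, N i = N i0 + ∑ i ∈ ({x1, x2, x3, x4} : Finset ι), N i +
            ∑ i ∈ Finset.univ \ insert i0 T, N i := by
          rw [← Finset.sum_sdiff (Finset.subset_univ (insert i0 T)), Finset.sum_insert hi0T, hTe]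
          ring
        linear_combination h + hdec
      · simp [t, hi0x.1, hi0x.2.1, hi0x.2.2.1, hi0x.2.2.2]
        exact fun e => hε2 (by rw [e, one_pow])
  obtain ⟨g, hg, ⟨cg, hcg, hga⟩, hgi⟩ := hO.dg_fix91 t htc a
  set v := (g : Matrix ι ι F) *ᵥ u with hv
  have hPv : Pc hO.std M a v := hPu.image hO hg hcg hga
  obtain ⟨hvv, hva, hPv'⟩ := hPv
  have hvi : ∀ i, v i = (t i : F) * u i := fun i => by
    by_cases hi : i = a
    · rw [hi, hva, hua, mul_zero]
    · exact hgi u i hi
  have hvu : sf σ v u = 1 := by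
    rw [sf, ← htsum]
    exact Finset.sum_congr rfl fun i _ => by rw [hvi, hN]; ring
  set w := v - u with hw
  have huv : sf σ u v = 1 := by rw [hf.herm u v, hvu, map_one]
  have hwu : sf σ w u = 0 := by rw [hw, UnitCentres.sub_left hf, hvu, huu, sub_self]
  have hww : sf σ w w = 0 := by
    rw [hw, UnitCentres.sub_left hf, UnitCentres.sub_right hf, UnitCentres.sub_right hf, hvv, hvu, huv,
      huu]
    ring
  refine ⟨w, ?_, by rw [hw, Pi.sub_apply, hva, hua, sub_zero], fun e => ?_, fun hq => ⟨T, hT4, fun i => ?_⟩⟩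
  · refine centre_of_sie hO.std huu hwu hww fun z hz => ?_
    set ε : Fˣ := (Units.mk0 z hz.ne_zero)⁻¹ with hε
    have hεc : Cir σ (ε : F) := by rw [hε, Units.val_inv_eq_inv_val]; exact hz.inv
    have hεc' : Cir σ ((ε⁻¹ : Fˣ) : F) := by rw [hε, inv_inv]; exact hz
    obtain ⟨_, _, hPu'⟩ := hPu
    refine ⟨_, M.mul_mem (hPu' ε hεc) (hPv' ε⁻¹ hεc'), fun x => ?_⟩
    have hcancel : ∀ y, ((uRefl hO.std (sf_ax_self (σ := σ) a) ε⁻¹ : Matrix ι ι F)) *ᵥ y =
        y + (((ε⁻¹ : Fˣ) : F) - 1) • (y a • ax a) := fun y => by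
      rw [uRefl_mulVec, sf_ax_right, smul_smul]
    simp only [Units.val_mul, ← mulVec_mulVec, uRefl_mulVec, sf_ax_right, inv_inv, mulVec_add,
      mulVec_smul, hf.add_left, hf.smul_left, hvu, huu, sf_ax_left, hua, hva, map_zero, Pi.add_apply,
      Pi.smul_apply, smul_eq_mul, Pi.single_eq_same]
    rw [show v = w + u by rw [hw]; abel, UnitCentres.add_right hf, hε]
    simp only [Units.val_inv_eq_inv_val, Units.val_mk0, inv_inv, map_sub, map_one, hz.conj_eq]
    have hz0 := hz.ne_zero
    match_scalars <;> first | ring1 | (field_simp; ring1) | (field_simp; done)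
  · obtain ⟨i, hi, hti⟩ := htne
    have h1 := congrFun e i
    rw [hw, Pi.sub_apply, hvi, Pi.zero_apply] at h1
    have h2 : ((t i : F) - 1) * u i = 0 := by linear_combination h1
    exact hti (sub_eq_zero.1 ((mul_eq_zero.1 h2).resolve_right ((hS i).1 hi)))
  · rw [hw, Pi.sub_apply, hvi, show (t i : F) * u i - u i = ((t i : F) - 1) * u i by ring, mul_ne_zero_iff,
      sub_ne_zero, htq hq i]
    exact ⟨fun h => ⟨h, (hS i).1 (hTS h)⟩, fun h => h.1⟩

end CfsgLib.UnitMono91
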