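import Mathlib
import Cfsg.Agent.Classical.UnitMono.Solve

/-!
Ten unknowns of norm one with product one and vanishing weighted sum: many independent solutions.
-/

set_option autoImplicit false
set_option linter.unusedSectionVars false

namespace CfsgLib.UnitMono91

open Matrix CfsgLib.UnitMono CfsgLib.TransvGL CfsgLib.MonoBasics CfsgLib.CircleSums

variable {F : Type*} [Field F] [Fintype F] {q : ℕ} {σ : F ≃+* F}

theorem cir_iff (hS : Std q σ) {z : F} : Cir σ z ↔ z ^ (q + 1) = 1 := by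
  show z * σ z = 1 ↔ _
  rw [hS.frob, ← pow_succ']

theorem odd_q (hS : Std q σ) (h2 : (2 : F) ≠ 0) : ∃ h, q = 2 * h + 1 := by
  rcases Nat.even_or_odd q with he | ho
  · exfalso
    refine h2 ?_
    haveI : Finite F := inferInstance
    have hev : Fintype.card F % 2 = 0 := by
      rw [hS.card]; exact Nat.even_iff.1 (Nat.even_pow.2 ⟨he, by norm_num⟩)
    have hc : ringChar F = 2 := FiniteField.even_card_iff_char_two.2 hev
    haveI : CharP F 2 := ringChar.of_eq hc
    exact CharTwo.two_eq_zero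
  · obtain ⟨h, rfl⟩ := ho
    exact ⟨h, rfl⟩

theorem even_q (hS : Std q σ) (h2 : (2 : F) = 0) : ∃ h, q = 2 * h := by
  rcases Nat.even_or_odd q with he | ho
  · obtain ⟨h, rfl⟩ := he; exact ⟨h, by ring⟩
  · exfalso
    haveI : CharP F 2 := CharTwo.of_one_ne_zero_of_two_eq_zero one_ne_zero h2
    have hev := FiniteField.even_card_iff_char_two.1 (ringChar.eq F 2)
    rw [hS.card] at hev
    have h3 := Nat.odd_iff.1 (ho.pow (n := 2))
    omega

theorem sqrt_cir_even (hS : Std q σ) (h2 : (2 : F) = 0) {z : F} (hz : Cir σ z) :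
    ∃ R, Cir σ R ∧ R ^ 2 = z := by
  obtain ⟨h, rfl⟩ := even_q hS h2
  rw [cir_iff hS] at hz
  refine ⟨z ^ (h + 1), ?_, ?_⟩
  · rw [cir_iff hS, ← pow_mul, mul_comm, pow_mul, hz, one_pow]
  · rw [← pow_mul, show (h + 1) * 2 = 2 * h + 1 + 1 by ring, pow_succ, hz, one_mul]

theorem sqrt_cir_odd (hS : Std q σ) {h : ℕ} (hq : q = 2 * h + 1) (h2 : (2 : F) ≠ 0) {z : F}
    (hz : Cir σ z) (hp : z ^ (h + 1) = 1) : ∃ R, Cir σ R ∧ R ^ 2 = z := by
  have hc : ringChar F ≠ 2 := fun e => h2 (by haveI := ringChar.of_eq e; exact CharTwo.two_eq_zero)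
  have hsq : IsSquare z := by
    rw [FiniteField.isSquare_iff hc hz.ne_zero, hS.card, hq,
      show (2 * h + 1) ^ 2 / 2 = (h + 1) * (2 * h) by
        rw [show (2 * h + 1) ^ 2 = 1 + 2 * ((h + 1) * (2 * h)) by ring, Nat.add_mul_div_left _ _ two_pos]
        simp,
      pow_mul, hp, one_pow]
  obtain ⟨R, rfl⟩ := hsq
  refine ⟨R, (cir_iff hS).2 ?_, sq R⟩
  rw [hq, show 2 * h + 1 + 1 = 2 * (h + 1) by ring, pow_mul, sq, hp]

theorem parity_sq (hS : Std q σ) {h : ℕ} (hq : q = 2 * h + 1) {z : F} (hz : Cir σ z) :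
    z ^ (h + 1) = 1 ∨ z ^ (h + 1) = -1 := by
  rw [cir_iff hS, hq, show 2 * h + 1 + 1 = (h + 1) * 2 by ring, pow_mul] at hz
  exact sq_eq_one_iff.1 hz

theorem norm_class (hS : Std q σ) {h : ℕ} (hq : q = 2 * h + 1) {x : F} (hx : x ≠ 0) :
    (σ x / x) ^ (h + 1) = (x * σ x) ^ h := by
  rw [hS.frob, ← pow_succ', ← pow_mul, div_pow, ← pow_mul, hq,
    div_eq_iff (pow_ne_zero _ hx), ← pow_add]
  congr 1
  ring

/-- Exchanging the two solutions of a two-term sum changes the parity of their product. -/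
theorem flip_pair (hS : Std q σ) {h : ℕ} (hq : q = 2 * h + 1) {a b u₁ u₂ : F} (ha : a ≠ 0) (hb : b ≠ 0)
    (hab : (a * b * σ (a * b)) ^ h = -1) (h₁ : Cir σ u₁) (h₂ : Cir σ u₂) (hz : u₁ * a + u₂ * b ≠ 0) :
    ∃ v₁ v₂, Cir σ v₁ ∧ Cir σ v₂ ∧ v₁ * a + v₂ * b = u₁ * a + u₂ * b ∧
      (u₁ * u₂ * (v₁ * v₂)) ^ (h + 1) = -1 ∧ v₁ * u₁ * (a * σ b) = v₂ * u₂ * (σ a * b) := by
  set z := u₁ * a + u₂ * b with hzdef
  have hquot : ∀ x : F, x ≠ 0 → Cir σ (x / σ x) := fun x hx => by
    show x / σ x * σ (x / σ x) = 1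
    rw [map_div₀, hS.invol]
    have : σ x ≠ 0 := by simpa using hx
    field_simp
  have hσa : σ a ≠ 0 := by simpa using ha
  have hσb : σ b ≠ 0 := by simpa using hb
  have hσz : σ z ≠ 0 := by simpa using hz
  have h₁0 := h₁.ne_zero
  have h₂0 := h₂.ne_zero
  refine ⟨z / σ z * (σ a / a) * u₁⁻¹, z / σ z * (σ b / b) * u₂⁻¹, ?_, ?_, ?_, ?_, ?_⟩
  · refine ((hquot z hz).mul ?_).mul h₁.inv
    simpa using (hquot a ha).inv
  · refine ((hquot z hz).mul ?_).mul h₂.inv
    simpa using (hquot b hb).inv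
  · have hσ : σ z = u₁⁻¹ * σ a + u₂⁻¹ * σ b := by
      rw [hzdef, map_add, map_mul, map_mul, h₁.conj_eq, h₂.conj_eq]
    have e : u₁⁻¹ * σ a + u₂⁻¹ * σ b ≠ 0 := hσ ▸ hσz
    rw [show z / σ z * (σ a / a) * u₁⁻¹ * a + z / σ z * (σ b / b) * u₂⁻¹ * b =
      z / σ z * (u₁⁻¹ * σ a + u₂⁻¹ * σ b) by field_simp; try ring]
    rw [← hσ, div_mul_cancel₀ _ hσz]
  · rw [show u₁ * u₂ * (z / σ z * (σ a / a) * u₁⁻¹ * (z / σ z * (σ b / b) * u₂⁻¹)) =
      (z / σ z) ^ 2 * (σ (a * b) / (a * b)) by rw [map_mul]; field_simp; try ring]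
    rw [mul_pow, norm_class hS hq (mul_ne_zero ha hb), hab, ← pow_mul,
      show 2 * (h + 1) = q + 1 by omega, (cir_iff hS).1 (hquot z hz), one_mul]
  · field_simp

section
variable {ι : Type} [Fintype ι] [DecidableEq ι]

/-- Vanishing on two blocks with the product a square, for many ratios on a free pair. -/
theorem ratio_sol (hS : Std q σ) (hn : Fintype.card ι = 10) {c : ι → F} (hc : ∀ i, c i ≠ 0)
    {k l : ι} (hkl : k ≠ l)
    (hkind : (2 : F) = 0 ∨ ∃ h, q = 2 * h + 1 ∧ (c k * c l * σ (c k * c l)) ^ h = -1) :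
    ∃ (A : Finset ι) (RS : Finset F), A.card = 4 ∧ k ∉ A ∧ l ∉ A ∧ q ≤ 2 * RS.card ∧
      ((2 : F) = 0 → q ≤ RS.card) ∧
      ∀ ρ ∈ RS, ∃ t : ι → Fˣ, (∀ i, Cir σ (t i : F)) ∧ (t k : F) = ρ * t l ∧
        ∑ i ∈ A, (t i : F) * c i = 0 ∧ ∑ i ∈ Aᶜ, (t i : F) * c i = 0 ∧
        ∃ R : Fˣ, Cir σ (R : F) ∧ R ^ 2 = ∏ i, t i := by
  classical
  obtain ⟨A, hA, hA4⟩ := Finset.exists_subset_card_eq (s := ({k, l} : Finset ι)ᶜ) (n := 4) (by
    rw [Finset.card_compl, Finset.card_pair hkl]; omega)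
  have hkA : k ∉ A := fun h => Finset.mem_compl.1 (hA h) (by simp)
  have hlA : l ∉ A := fun h => Finset.mem_compl.1 (hA h) (by simp)
  set Q := (A ∪ {k, l})ᶜ with hQ
  have hQ4 : Q.card = 4 := by
    rw [hQ, Finset.card_compl, Finset.card_union_of_disjoint, hA4, Finset.card_pair hkl, hn]
    simp [hkA, hlA]
  have hQA : Q ⊆ Aᶜ := Finset.compl_subset_compl.2 Finset.subset_union_left
  have hkQ : k ∉ Q := by simp [hQ]
  have hlQ : l ∉ Q := by simp [hQ]
  obtain ⟨tA, hAc, -, hAs⟩ := block_zero hS (Finset.Subset.refl A) hA4 (fun i _ => hc i)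
    (fun _ => 1) (fun _ => cir_one σ)
  set C' := Finset.univ.filter fun z : F => Cir σ z ∧ z * c k + c l ≠ 0 with hC'
  have hC'c : q ≤ C'.card := by
    have h1 : (Finset.univ.filter fun z : F => Cir σ z) ⊆ insert (-(c l / c k)) C' := fun z hz => by
      rw [Finset.mem_insert, hC', Finset.mem_filter]
      by_cases h : z * c k + c l = 0
      · left; have := hc k; field_simp; linear_combination h
      · exact Or.inr ⟨Finset.mem_univ _, (Finset.mem_filter.1 hz).2, h⟩
    have h2 := (Finset.card_le_card h1).trans (Finset.card_insert_le _ _)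
    rw [card_cir hS.card hS.frob] at h2
    omega
  set κ := σ (c k) * c l / (c k * σ (c l))
  have hmain : ∀ ρ ∈ C', ∃ t : ι → Fˣ, (∀ i, Cir σ (t i : F)) ∧
      ((t k : F) = ρ * t l ∨ ((t k : F) = κ / ρ * t l ∧ (2 : F) ≠ 0)) ∧
      ∑ i ∈ A, (t i : F) * c i = 0 ∧ ∑ i ∈ Aᶜ, (t i : F) * c i = 0 ∧
      ∃ R : Fˣ, Cir σ (R : F) ∧ R ^ 2 = ∏ i, t i := by
    intro ρ hρ
    obtain ⟨-, hρc, hρz⟩ := Finset.mem_filter.1 hρ
    obtain ⟨tB, hBc, hBf, hBs⟩ := block_zero hS hQA hQ4 (fun i _ => hc i)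
      (fun i => if i = k then Units.mk0 ρ hρc.ne_zero else 1)
      (fun i => by split_ifs; exacts [hρc, cir_one σ])
    let t : ι → Fˣ := fun i => if i ∈ A then tA i else tB i
    have htc : ∀ i, Cir σ (t i : F) := fun i => by
      simp only [t]; split_ifs; exacts [hAc i, hBc i]
    have htA : ∑ i ∈ A, (t i : F) * c i = 0 := by
      rw [← hAs]; exact Finset.sum_congr rfl fun i hi => by simp [t, hi]
    have htB : ∑ i ∈ Aᶜ, (t i : F) * c i = 0 := by
      rw [← hBs]; exact Finset.sum_congr rfl fun i hi => by simp [t, Finset.mem_compl.1 hi]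
    have htk : t k = Units.mk0 ρ hρc.ne_zero := by simp [t, hkA, hBf k hkQ]
    have htl : t l = 1 := by simp [t, hlA, hBf l hlQ, Ne.symm hkl]
    set P := ∏ i, t i
    have hPc : Cir σ (P : F) := cir_prod _ _ fun i _ => htc i
    have mk : ∀ R : F, Cir σ R → R ^ 2 = (P : F) → ∃ R : Fˣ, Cir σ (R : F) ∧ R ^ 2 = P :=
      fun R hR h => ⟨Units.mk0 R hR.ne_zero, hR, Units.ext (by simpa using h)⟩
    rcases hkind with h2 | ⟨h, hq, hmix⟩
    · obtain ⟨R, hR, hR2⟩ := sqrt_cir_even hS h2 hPc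
      exact ⟨t, htc, Or.inl (by rw [htk, htl]; simp), htA, htB, mk R hR hR2⟩
    have h2 : (2 : F) ≠ 0 := fun e => by
      obtain ⟨h', hh'⟩ := even_q hS e
      omega
    rcases parity_sq hS hq hPc with hp | hp
    · obtain ⟨R, hR, hR2⟩ := sqrt_cir_odd hS hq h2 hPc hp
      exact ⟨t, htc, Or.inl (by rw [htk, htl]; simp), htA, htB, mk R hR hR2⟩
    obtain ⟨v₁, v₂, hv₁, hv₂, hvz, hvp, hvr⟩ := flip_pair hS hq (hc k) (hc l) hmix hρc (cir_one σ)
      (by rw [one_mul]; exact hρz)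
    let t' : ι → Fˣ := Function.update (Function.update t k (Units.mk0 v₁ hv₁.ne_zero)) l
      (Units.mk0 v₂ hv₂.ne_zero)
    have htk' : t' k = Units.mk0 v₁ hv₁.ne_zero := by simp [t', hkl]
    have htl' : t' l = Units.mk0 v₂ hv₂.ne_zero := by simp [t']
    have hto : ∀ i, i ≠ k → i ≠ l → t' i = t i := fun i h1 h2 => by simp [t', h1, h2]
    have htc' : ∀ i, Cir σ (t' i : F) := fun i => by
      rcases eq_or_ne i l with rfl | hil
      · rw [htl']; exact hv₂
      rcases eq_or_ne i k with rfl | hik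
      · rw [htk']; exact hv₁
      · rw [hto i hik hil]; exact htc i
    refine ⟨t', htc', Or.inr ⟨?_, h2⟩, ?_, ?_, ?_⟩
    · rw [htk', htl', Units.val_mk0, Units.val_mk0]
      have := hc k
      have := hρc.ne_zero
      have hσl : σ (c l) ≠ 0 := by simpa using hc l
      simp only [κ]
      field_simp
      linear_combination hvr
    · rw [← htA]
      exact Finset.sum_congr rfl fun i hi => by
        rw [hto i (fun e => hkA (e ▸ hi)) (fun e => hlA (e ▸ hi))]
    · rw [← htB, ← sub_eq_zero, ← Finset.sum_sub_distrib,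
        Finset.sum_eq_add_of_mem k l (Finset.mem_compl.2 hkA) (Finset.mem_compl.2 hlA) hkl
          (fun i _ hi => by rw [hto i hi.1 hi.2, sub_self]), htk', htl', htk, htl]
      simp only [Units.val_mk0, Units.val_one]
      linear_combination hvz
    · have e : (∏ i, t' i) * (t k * t l) = P * (t' k * t' l) := by
        have e1 : ∀ f : ι → Fˣ, ∏ i, f i = f k * f l * ∏ i ∈ Finset.univ \ {k, l}, f i := fun f => by
          rw [← Finset.prod_sdiff (Finset.subset_univ ({k, l} : Finset ι)), Finset.prod_pair hkl, mul_comm]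
        show (∏ i, t' i) * (t k * t l) = (∏ i, t i) * (t' k * t' l)
        rw [e1 t', e1 t, Finset.prod_congr rfl (fun i hi => hto i (fun e => by simp [e] at hi) (fun e => by simp [e] at hi))]
        ac_rfl
      have hPc' : Cir σ ((∏ i, t' i : Fˣ) : F) := cir_prod _ _ fun i _ => htc' i
      have hρ1 : (t k * t l : Fˣ) = Units.mk0 ρ hρc.ne_zero := by rw [htk, htl, mul_one]
      have he : ((∏ i, t' i : Fˣ) : F) * ρ = (P : F) * (v₁ * v₂) := by
        have := congrArg Units.val e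
        rw [hρ1] at this
        rwa [Units.val_mul, Units.val_mul, Units.val_mul, htk', htl'] at this
      have hpar : ((∏ i, t' i : Fˣ) : F) ^ (h + 1) = 1 := by
        have hρ2 : (ρ ^ (h + 1)) ^ 2 = 1 := by
          rw [← pow_mul, show (h + 1) * 2 = q + 1 by omega]; exact (cir_iff hS).1 hρc
        rw [mul_one, mul_pow] at hvp
        have h3 := congrArg (fun x : F => x ^ (h + 1)) he
        simp only [mul_pow, hp] at h3
        rw [← mul_pow v₁ v₂] at h3
        have h4 := congrArg (fun x : F => x * ρ ^ (h + 1)) h3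
        rw [mul_assoc, ← sq, hρ2, mul_one] at h4
        linear_combination h4 - hvp
      obtain ⟨R, hR, hR2⟩ := sqrt_cir_odd hS hq h2 hPc' hpar
      exact ⟨Units.mk0 R hR.ne_zero, hR, Units.ext (by simpa using hR2)⟩
  choose! t ht using hmain
  refine ⟨A, C'.image fun ρ => (t ρ k : F) / (t ρ l : F), hA4, hkA, hlA, ?_, fun h2 => ?_, ?_⟩
  · refine hC'c.trans (Finset.card_le_mul_card_image C' 2 fun r hr => ?_)
    refine (Finset.card_le_card (t := {r, κ / r}) fun ρ hρ => ?_).trans Finset.card_le_two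
    obtain ⟨hρ, e⟩ := Finset.mem_filter.1 hρ
    have hl0 := (t ρ l).ne_zero
    have hρ0 := ((Finset.mem_filter.1 hρ).2.1 : Cir σ ρ).ne_zero
    rw [Finset.mem_insert, Finset.mem_singleton]
    rcases (ht ρ hρ).2.1 with h | ⟨h, -⟩
    · left; rw [← e, h, mul_div_cancel_right₀ _ hl0]
    · right
      rw [← e, h, mul_div_cancel_right₀ _ hl0, div_div_eq_mul_div, mul_div_assoc]
      have hk0 := hc k
      have hl : σ (c l) ≠ 0 := by simpa using hc l
      have hκ0 : κ ≠ 0 := div_ne_zero (mul_ne_zero (by simpa using hk0) (hc l)) (mul_ne_zero hk0 hl)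
      field_simp
  · refine hC'c.trans (le_of_eq (Finset.card_image_of_injOn fun ρ hρ ρ' hρ' e => ?_).symm)
    have key : ∀ x ∈ C', (t x k : F) / (t x l : F) = x := fun x hx => by
      rcases (ht x hx).2.1 with h | ⟨-, h⟩
      · rw [h, mul_div_cancel_right₀ _ (t x l).ne_zero]
      · exact absurd h2 h
    simpa [key ρ hρ, key ρ' hρ'] using e
  · intro r hr
    obtain ⟨ρ, hρ, rfl⟩ := Finset.mem_image.1 hr
    exact ⟨t ρ, (ht ρ hρ).1, (div_mul_cancel₀ _ (t ρ l).ne_zero).symm, (ht ρ hρ).2.2⟩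

/-- Ten unknowns of norm one with product one and vanishing sum, avoiding nine given lines. -/
theorem exists_sol (hS : Std q σ) (hn : Fintype.card ι = 10) {c : ι → F} (hc : ∀ i, c i ≠ 0)
    {k l : ι} (hkl : k ≠ l)
    (hkind : ((2 : F) = 0 ∧ 8 ≤ q) ∨
      (11 ≤ q ∧ ∃ h, q = 2 * h + 1 ∧ (c k * c l * σ (c k * c l)) ^ h = -1))
    (B : Finset ι) (hB : B.card ≤ 9) (bad : ι → ι → F) :
    ∃ t : ι → Fˣ, (∀ i, Cir σ (t i : F)) ∧ ∏ i, t i = 1 ∧ ∑ i, (t i : F) * c i = 0 ∧
      ∀ d ∈ B, ∀ γ : F, ∃ i, (t i : F) ≠ γ * bad d i := by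
  classical
  obtain ⟨A, RS, hA4, hkA, hlA, hRS, hRS2, hsol⟩ := ratio_sol hS hn hc hkl
    (hkind.imp (fun h => h.1) (fun h => h.2))
  choose! tf htc htk htA htB Rf hRc hR2 using hsol
  set C := Finset.univ.filter fun z : F => Cir σ z with hCdef
  set Ω := C.image fun η => η ^ 5 with hΩ
  have hΩc : q + 1 ≤ 5 * Ω.card := by
    rw [← card_cir hS.card hS.frob]
    refine Finset.card_le_mul_card_image C 5 fun r _ => ?_
    refine (Finset.card_le_card (t := (Polynomial.nthRoots 5 r).toFinset) fun z hz => ?_).trans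
      ((Multiset.toFinset_card_le _).trans (Polynomial.card_nthRoots _ _))
    rw [Multiset.mem_toFinset, Polynomial.mem_nthRoots (by norm_num)]
    exact (Finset.mem_filter.1 hz).2
  have hbig : 10 ≤ (RS ×ˢ Ω).card := by
    rw [Finset.card_product]
    rcases hkind with ⟨h2, h8⟩ | ⟨h11, -⟩
    · calc 10 ≤ 8 * 2 := by norm_num
        _ ≤ RS.card * Ω.card := Nat.mul_le_mul (h8.trans (hRS2 h2)) (by omega)
    · calc 10 ≤ 6 * 3 := by norm_num
        _ ≤ RS.card * Ω.card := Nat.mul_le_mul (by omega) (by omega)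
  by_contra hno
  push Not at hno
  obtain ⟨p, hp⟩ : A.Nonempty := Finset.card_pos.1 (by omega)
  have hdata : ∀ x ∈ RS ×ˢ Ω, ∃ d ∈ B, ∃ γ : F, γ ≠ 0 ∧
      (Rf x.1 : F) ^ 2 * x.2 * (tf x.1 p : F) = γ * bad d p ∧ (tf x.1 k : F) = γ * bad d k ∧
      (tf x.1 l : F) = γ * bad d l := by
    intro x hx
    obtain ⟨hρ, hω⟩ := Finset.mem_product.1 hx
    obtain ⟨η0, hη, hη5⟩ := Finset.mem_image.1 hω
    have htc := htc _ hρ
    have htk := htk _ hρ
    have htA := htA _ hρ
    have htB := htB _ hρ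
    have hRc := hRc _ hρ
    have hR2 := hR2 _ hρ
    set t := tf x.1 with ht
    set R := Rf x.1
    have hηc : Cir σ η0 := (Finset.mem_filter.1 hη).2
    set η : Fˣ := Units.mk0 η0 hηc.ne_zero
    set W : Fˣ := (R * η ^ 2)⁻¹ with hW
    set Z : Fˣ := R ^ 2 * η ^ 5 with hZ
    have hWc : Cir σ (W : F) := by
      rw [hW, Units.val_inv_eq_inv_val, Units.val_mul, Units.val_pow_eq_pow_val, ← zpow_natCast]
      exact (hRc.mul (hηc.zpow _)).inv
    have hZc : Cir σ (Z : F) := by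
      rw [hZ, Units.val_mul, Units.val_pow_eq_pow_val, Units.val_pow_eq_pow_val, ← zpow_natCast,
        ← zpow_natCast]
      exact (hRc.zpow _).mul (hηc.zpow _)
    let T : ι → Fˣ := fun i => (if i ∈ A then Z else 1) * W * t i
    obtain ⟨d, hd, γ, hγ⟩ := hno T (fun i => by
        simp only [T, Units.val_mul]
        split_ifs
        · exact (hZc.mul hWc).mul (htc i)
        · exact ((cir_one σ).mul hWc).mul (htc i))
      (by
        simp only [T]
        rw [Finset.prod_mul_distrib, Finset.prod_mul_distrib, Finset.prod_ite_mem, Finset.univ_inter,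
          Finset.prod_const, Finset.prod_const, Finset.card_univ, hn, hA4, ← hR2, hW, hZ]
        refine Units.ext ?_
        simp only [Units.val_mul, Units.val_pow_eq_pow_val, Units.val_inv_eq_inv_val, Units.val_one]
        have := R.ne_zero
        have := η.ne_zero
        field_simp)
      (by
        rw [← Finset.sum_add_sum_compl A]
        have e1 : ∀ i ∈ A, (T i : F) * c i = ((Z * W : Fˣ) : F) * ((t i : F) * c i) := fun i hi => by
          simp only [T, if_pos hi, Units.val_mul]; ring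
        have e2 : ∀ i ∈ Aᶜ, (T i : F) * c i = (W : F) * ((t i : F) * c i) := fun i hi => by
          simp only [T, if_neg (Finset.mem_compl.1 hi), one_mul, Units.val_mul]; ring
        rw [Finset.sum_congr rfl e1, Finset.sum_congr rfl e2, ← Finset.mul_sum, ← Finset.mul_sum, htA, htB,
          mul_zero, mul_zero, add_zero])
    have hW0 := W.ne_zero
    have ek := hγ k
    have el := hγ l
    have ep := hγ p
    simp only [T, if_neg hkA, if_neg hlA, if_pos hp, one_mul, Units.val_mul] at ek el ep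
    rw [hZ, Units.val_mul, Units.val_pow_eq_pow_val, Units.val_pow_eq_pow_val,
      show (η : F) ^ 5 = x.2 from hη5] at ep
    refine ⟨d, hd, γ / W, div_ne_zero (fun e => ?_) hW0, ?_, ?_, ?_⟩
    · rw [e, zero_mul] at ek; exact mul_ne_zero hW0 (t k).ne_zero ek
    all_goals field_simp
    · linear_combination ep
    · linear_combination ek
    · linear_combination el
  haveI : Nonempty ι := ⟨k⟩
  choose! d hd γ hγ hep hek hel using hdata
  have hinj : Set.InjOn d ((RS ×ˢ Ω : Finset (F × F)) : Set (F × F)) := fun x hx y hy e => by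
    obtain ⟨ρ, ω⟩ := x
    obtain ⟨ρ', ω'⟩ := y
    have k1 := hek _ hx; have l1 := hel _ hx; have k2 := hek _ hy; have l2 := hel _ hy
    have p1 := hep _ hx; have p2 := hep _ hy
    simp only [← e] at k1 l1 k2 l2 p1 p2
    have hρρ : ρ = ρ' := by
      have a := htk _ (Finset.mem_product.1 hx).1
      have b := htk _ (Finset.mem_product.1 hy).1
      dsimp only at a b
      have h1 : (tf ρ k : F) * (tf ρ' l : F) = (tf ρ' k : F) * (tf ρ l : F) := by
        rw [k1, l1, k2, l2]; ring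
      rw [a, b] at h1
      exact mul_right_cancel₀ (mul_ne_zero (tf ρ l).ne_zero (tf ρ' l).ne_zero)
        (by linear_combination h1)
    subst hρρ
    have hγγ : γ (ρ, ω) = γ (ρ, ω') := by
      refine mul_right_cancel₀ (fun h0 => ?_) (l1.symm.trans l2)
      rw [h0, mul_zero] at l1
      exact (tf ρ l).ne_zero l1
    rw [← hγγ, ← p1] at p2
    exact Prod.ext rfl (mul_left_cancel₀ (pow_ne_zero 2 (Rf ρ).ne_zero)
      (mul_right_cancel₀ (tf ρ p).ne_zero p2.symm))
  have := Finset.card_le_card_of_injOn d (fun x hx => hd x hx) hinj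
  omega

end

end CfsgLib.UnitMono91
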