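import Mathlib
import Cfsg.Agent.UnitMono91.Fix
import Cfsg.Agent.UnitMono91.Solve

/-!
A proper overgroup of the special monomial unitary group in dimension ten or twelve, in which only
monomial elements fix axes, has a non-monomial element with a zero entry.
-/

set_option autoImplicit false
set_option linter.unusedSectionVars false

namespace CfsgLib.UnitMono91

open Matrix CfsgLib.UnitMono CfsgLib.TransvGL CfsgLib.MonoBasics CfsgLib.UnitCentres CfsgLib.PseudoRefl
  CfsgLib.CircleSums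

variable {ι : Type} [Fintype ι] [DecidableEq ι] {F : Type*} [Field F] [Fintype F]
variable {q : ℕ} {σ : F ≃+* F} {M : Subgroup (GL ι F)}

local notation "ax" i:max => (Pi.single i (1 : F) : ι → F)

/-- The quadratic character through the norm. -/
def chi (σ : F ≃+* F) (h : ℕ) (x : F) : F := (x * σ x) ^ h

theorem chi_mul (σ : F ≃+* F) (h : ℕ) (x y : F) : chi σ h (x * y) = chi σ h x * chi σ h y := by
  rw [chi, chi, chi, ← mul_pow, map_mul]; congr 1; ring

theorem chi_sq (hS : Std q σ) {h : ℕ} (hq : q = 2 * h + 1) {x : F} (hx : x ≠ 0) :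
    chi σ h x = 1 ∨ chi σ h x = -1 := by
  refine sq_eq_one_iff.1 ?_
  have hN : x * σ x ≠ 0 := mul_ne_zero hx (by simpa using hx)
  have e : (x * σ x) ^ (q - 1) * (x * σ x) = 1 * (x * σ x) := by
    rw [← pow_succ, show q - 1 + 1 = q by omega, ← hS.frob, norm_fixed hS.card hS.frob, one_mul]
  have := mul_right_cancel₀ hN e
  rw [chi, ← pow_mul, show h * 2 = q - 1 by omega]
  exact this

theorem chi_cir (σ : F ≃+* F) (h : ℕ) {x : F} (hx : Cir σ x) : chi σ h x = 1 := by
  rw [chi, show x * σ x = 1 from hx, one_pow]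

theorem chi_conj (hS : Std q σ) (h : ℕ) (x : F) : chi σ h (σ x) = chi σ h x := by
  rw [chi, chi, hS.invol, mul_comm]

omit [Fintype F] in
theorem sum_col (g : GL ι F) (x : ι → F) :
    (g : Matrix ι ι F) *ᵥ x = ∑ j, x j • ((g : Matrix ι ι F) *ᵥ ax j) := by
  conv_lhs => rw [← Finset.univ_sum_single x, mulVec_sum]
  exact Finset.sum_congr rfl fun j _ => by
    rw [show Pi.single j (x j) = x j • ax j by simp [← Pi.single_smul'], mulVec_smul]

variable (hO : Over q σ M) (hn : 10 ≤ Fintype.card ι)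
  (hU : ∀ h : GL ι F, h ∈ M → ∀ a : ι,
    (h : Matrix ι ι F) *ᵥ (Pi.single a (1 : F) : ι → F) ∈
      Submodule.span F {(Pi.single a (1 : F) : ι → F)} → IsMono h)
  (hfull : ∀ g ∈ M, ¬ IsMono g → ∀ a k, ((g : Matrix ι ι F) *ᵥ Pi.single a (1 : F)) k ≠ 0)
include hO hn hU hfull

omit hfull in
theorem conj_torPair_nonmono {g : GL ι F} (hg : g ∈ M) (hgm : ¬ IsMono g) {k k' : ι} (hkk : k ≠ k')
    {ε : Fˣ} (hε : (ε : F) ≠ 1) : ¬ IsMono (g⁻¹ * dg (torPair k k' ε) * g) := by
  intro hxm
  have hdy : ∀ y, (dg (torPair k k' ε) : Matrix ι ι F) *ᵥ y =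
      y + (((ε : F) - 1) * y k) • ax k + (((ε : F)⁻¹ - 1) * y k') • ax k' := fun y => funext fun i => by
    rw [dg_mulVec]
    rcases eq_or_ne i k with rfl | hik
    · simp [torPair, hkk]; ring
    rcases eq_or_ne i k' with rfl | hik'
    · simp [torPair, Ne.symm hkk]; ring
    · simp [torPair, hik, hik']
  have hxy : ∀ y, ((g⁻¹ * dg (torPair k k' ε) * g : GL ι F) : Matrix ι ι F) *ᵥ y - y =
      (((ε : F) - 1) * ((g : Matrix ι ι F) *ᵥ y) k) • (((g⁻¹ : GL ι F) : Matrix ι ι F) *ᵥ ax k) +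
      (((ε : F)⁻¹ - 1) * ((g : Matrix ι ι F) *ᵥ y) k') • (((g⁻¹ : GL ι F) : Matrix ι ι F) *ᵥ ax k') :=
    fun y => by
      rw [Units.val_mul, Units.val_mul, ← mulVec_mulVec, ← mulVec_mulVec, hdy, mulVec_add, mulVec_add,
        inv_mulVec_mulVec, mulVec_smul, mulVec_smul]
      abel
  refine plane_absurd hO hn hU hg hgm hxm (e := ax k)
    (e' := ((g⁻¹ : GL ι F) : Matrix ι ι F) *ᵥ ax k') (fun y => hxy y ▸ ?_) k
    (c := (ε : F) - 1) (sub_ne_zero.2 hε) (y₀ := ((g⁻¹ : GL ι F) : Matrix ι ι F) *ᵥ ax k) ?_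
  · exact Submodule.add_mem _ (Submodule.smul_mem _ _ (Submodule.subset_span (Or.inl rfl)))
      (Submodule.smul_mem _ _ (Submodule.subset_span (Or.inr rfl)))
  · rw [hxy, mulVec_inv_mulVec]
    simp [Ne.symm hkk]

/-- With all entries of all elements in one class, two rows are proportional: absurd. -/
theorem uniform_absurd {h : ℕ} (hq : q = 2 * h + 1)
    (huni : ∀ g ∈ M, ¬ IsMono g → ∀ a b k l : ι,
      chi σ h (((g : Matrix ι ι F) *ᵥ Pi.single a (1 : F)) k) =
        chi σ h (((g : Matrix ι ι F) *ᵥ Pi.single b (1 : F)) l))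
    {g : GL ι F} (hg : g ∈ M) (hgm : ¬ IsMono g) : False := by
  classical
  have hS := hO.std
  obtain ⟨k, k', hkk⟩ := Fintype.exists_pair_of_one_lt_card (by omega : 1 < Fintype.card ι)
  set G : ι → ι → F := fun r j => ((g : Matrix ι ι F) *ᵥ ax j) r with hG
  have hG0 : ∀ r j, G r j ≠ 0 := fun r j => hfull g hg hgm j r
  set C1 := Finset.univ.filter fun z : F => Cir σ z ∧ z ≠ 1 with hC1
  have hC1c : q ≤ C1.card := by
    have h1 : (Finset.univ.filter fun z : F => Cir σ z) ⊆ insert 1 C1 := fun z hz => by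
      rw [Finset.mem_insert, hC1, Finset.mem_filter]
      by_cases h : z = 1
      · exact Or.inl h
      · exact Or.inr ⟨Finset.mem_univ _, (Finset.mem_filter.1 hz).2, h⟩
    have h2 := (Finset.card_le_card h1).trans (Finset.card_insert_le _ _)
    rw [card_cir hS.card hS.frob] at h2
    omega
  set A : ι → ι → F := fun i j => G k j * σ (G k i) with hA
  set B : ι → ι → F := fun i j => G k' j * σ (G k' i) with hB
  set P : ι → ι → Polynomial F := fun i j => Polynomial.C (A i j * σ (B i j)) * Polynomial.X ^ 2 -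
    Polynomial.C (A i j * σ (A i j) + B i j * σ (B i j)) * Polynomial.X + Polynomial.C (σ (A i j) * B i j)
    with hP
  have hentry : ∀ z, Cir σ z → z ≠ 1 → ∀ i j, i ≠ j → ∀ l m, l ≠ m →
      ((P i j).eval z) ^ h = ((P l m).eval z) ^ h := by
    intro z hz hz1 i j hij l m hlm
    set ε : Fˣ := Units.mk0 z hz.ne_zero
    set x := g⁻¹ * dg (torPair k k' ε) * g
    have hxM : x ∈ M := M.mul_mem (M.mul_mem (M.inv_mem hg) (hO.torPair_mem hkk hz)) hg
    have hxm : ¬ IsMono x := conj_torPair_nonmono hO hn hU hg hgm hkk hz1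
    have hx : ∀ i j, i ≠ j → ((x : Matrix ι ι F) *ᵥ ax j) i = (z - 1) / z * (z * A i j - B i j) := by
      intro i j hij
      have h0 : sf σ ((g : Matrix ι ι F) *ᵥ ax j) ((g : Matrix ι ι F) *ᵥ ax i) = 0 := by
        rw [hO.iso g hg, sf_ax_right]; simp [hij]
      rw [show x = g⁻¹ * dg (torPair k k' ε) * g from rfl, Units.val_mul, Units.val_mul, ← mulVec_mulVec,
        ← mulVec_mulVec, inv_apply_eq (hO.iso g hg), ← sub_zero (sf σ _ _), ← h0, sf, sf,
        ← Finset.sum_sub_distrib, Fintype.sum_eq_add k k' hkk fun r hr => by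
          simp [dg_mulVec, torPair, hr.1, hr.2]]
      simp [dg_mulVec, torPair, Ne.symm hkk, hA, hB, hG, ε]
      have := hz.ne_zero
      field_simp
      ring
    have e : chi σ h (z * A i j - B i j) = chi σ h (z * A l m - B l m) := by
      have h1 := huni x hxM hxm j m i l
      rw [hx i j hij, hx l m hlm, chi_mul, chi_mul] at h1
      refine mul_left_cancel₀ ?_ h1
      exact pow_ne_zero _ (mul_ne_zero (div_ne_zero (sub_ne_zero.2 hz1) hz.ne_zero)
        ((map_ne_zero σ).2 (div_ne_zero (sub_ne_zero.2 hz1) hz.ne_zero)))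
    have key : ∀ i j, (P i j).eval z = -z * ((z * A i j - B i j) * σ (z * A i j - B i j)) := fun i j => by
      simp only [hP, Polynomial.eval_add, Polynomial.eval_sub, Polynomial.eval_mul, Polynomial.eval_C,
        Polynomial.eval_pow, Polynomial.eval_X, map_sub, map_mul]
      linear_combination (z * (A i j * σ (A i j)) - σ (A i j) * B i j) * (id hz : z * σ z = 1)
    rw [key, key, mul_pow, mul_pow (-z)]
    exact congrArg _ e
  have hrel : ∀ i j, i ≠ j → ∀ l m, l ≠ m → A l m * B i j = B l m * A i j ∨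
      σ (B l m) * B i j = σ (A l m) * A i j := by
    intro i j hij l m hlm
    have hdeg : ∀ i j, ((P i j) ^ h).natDegree ≤ 2 * h := fun i j => by
      refine Polynomial.natDegree_pow_le.trans ?_
      rw [mul_comm]
      refine Nat.mul_le_mul_right _ ?_
      simp only [hP]
      compute_degree
    have h0 : (P l m) ^ h - (P i j) ^ h = 0 := by
      refine Polynomial.eq_zero_of_natDegree_lt_card_of_eval_eq_zero' _ C1 (fun z hz => ?_) ?_
      · obtain ⟨-, hzc, hz1⟩ := Finset.mem_filter.1 hz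
        rw [Polynomial.eval_sub, Polynomial.eval_pow, Polynomial.eval_pow,
          hentry z hzc hz1 i j hij l m hlm, sub_self]
      · have := (Polynomial.natDegree_sub_le ((P l m) ^ h) ((P i j) ^ h)).trans
          (max_le (hdeg l m) (hdeg i j))
        omega
    have hA0 : A i j ≠ 0 := mul_ne_zero (hG0 _ _) (by simpa using hG0 _ _)
    set r := B i j / A i j
    have h1 := congrArg (Polynomial.eval r) h0
    rw [Polynomial.eval_sub, Polynomial.eval_pow, Polynomial.eval_pow, Polynomial.eval_zero] at h1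
    have hh : h ≠ 0 := by have := hS.two_le; omega
    have e2 : (P i j).eval r = 0 := by
      simp only [hP, Polynomial.eval_add, Polynomial.eval_sub, Polynomial.eval_mul, Polynomial.eval_C,
        Polynomial.eval_pow, Polynomial.eval_X, r]
      field_simp
      ring
    rw [e2, zero_pow hh, sub_zero, pow_eq_zero_iff hh] at h1
    have e3 : (P l m).eval r = (A l m * r - B l m) * (σ (B l m) * r - σ (A l m)) := by
      simp only [hP, Polynomial.eval_add, Polynomial.eval_sub, Polynomial.eval_mul, Polynomial.eval_C,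
        Polynomial.eval_pow, Polynomial.eval_X]
      ring
    rw [e3, mul_eq_zero] at h1
    simp only [r] at h1
    field_simp at h1
    exact h1.imp (fun e => by linear_combination e) (fun e => by linear_combination e)
  set ρ : ι → F := fun j => G k' j / G k j with hρ
  have hρ0 : ∀ j, σ (ρ j) ≠ 0 := fun j => by simpa [hρ] using And.intro (hG0 k' j) (hG0 k j)
  obtain ⟨i0, j0, h00⟩ := Fintype.exists_pair_of_one_lt_card (by omega : 1 < Fintype.card ι)
  set X := ρ j0 * σ (ρ i0)
  have hX : ∀ l m, l ≠ m → ρ m * σ (ρ l) = X ∨ ρ m * σ (ρ l) = (σ X)⁻¹ := by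
    intro l m hlm
    have a1 := hG0 k i0; have a2 := hG0 k j0; have a3 := hG0 k l; have a4 := hG0 k m
    have a5 := hG0 k' i0; have a6 := hG0 k' j0; have a7 := hG0 k' l; have a8 := hG0 k' m
    have b1 : σ (G k i0) ≠ 0 := by simpa using a1
    have b2 : σ (G k j0) ≠ 0 := by simpa using a2
    have b3 : σ (G k l) ≠ 0 := by simpa using a3
    have b5 : σ (G k' i0) ≠ 0 := by simpa using a5
    have b6 : σ (G k' j0) ≠ 0 := by simpa using a6
    rcases hrel i0 j0 h00 l m hlm with e | e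
    · left
      simp only [hA, hB] at e
      simp only [X, hρ, map_div₀]
      field_simp
      linear_combination -e
    · right
      have e' := congrArg σ e
      simp only [hA, hB, map_mul, hS.invol] at e'
      simp only [X, hρ, map_mul, map_div₀, hS.invol]
      field_simp
      linear_combination e'
  obtain ⟨j1, hj1, j2, hj2, h12, hs⟩ := Finset.exists_ne_map_eq_of_card_lt_of_maps_to
    (s := Finset.univ.erase i0) (t := ({X / σ (ρ i0), (σ X)⁻¹ / σ (ρ i0)} : Finset F)) (f := ρ)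
    (by
      rw [Finset.card_erase_of_mem (Finset.mem_univ _), Finset.card_univ]
      exact Finset.card_le_two.trans_lt (by omega))
    (fun j hj => by
      rw [Finset.coe_insert, Finset.coe_singleton, Set.mem_insert_iff, Set.mem_singleton_iff]
      rcases hX i0 j (Ne.symm (Finset.ne_of_mem_erase hj)) with e | e
      · left; rw [eq_div_iff (hρ0 i0)]; exact e
      · right; rw [eq_div_iff (hρ0 i0)]; exact e)
  set S := ρ j1 * σ (ρ j1) with hSdef
  have hs0 : ρ j1 ≠ 0 := by simpa using hρ0 j1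
  have hS0 : S ≠ 0 := mul_ne_zero hs0 (hρ0 j1)
  have hσS : σ S = S := norm_fixed hS.card hS.frob _
  have hXS : ∀ l m, l ≠ m → ρ m * σ (ρ l) = S ∨ ρ m * σ (ρ l) = S⁻¹ := by
    intro l m hlm
    have hj := hX j2 j1 (Ne.symm h12)
    rw [← hs] at hj
    rw [← hSdef] at hj
    have := hX l m hlm
    rcases hj with e | e
    · rw [← e, hσS] at this
      exact this
    · have e' : σ X = S⁻¹ := by rw [e, inv_inv]
      have e'' : X = S⁻¹ := by rw [← hS.invol X, e', map_inv₀, hσS]
      rw [e', e'', inv_inv] at this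
      exact this.symm
  set D := (S⁻¹) ^ 2 with hD
  set ν : ι → F := fun i => ρ i / ρ j1 with hν
  have hν2 : ∀ i, (ν i - 1) * (ν i - D) = 0 := fun i => by
    obtain ⟨j, hji, hjs⟩ : ∃ j, j ≠ i ∧ ρ j = ρ j1 := by
      by_cases h : j1 = i
      · exact ⟨j2, fun e => h12 (h.trans e.symm), hs.symm⟩
      · exact ⟨j1, h, rfl⟩
    have h1 := hXS j i hji
    rw [hjs] at h1
    simp only [hν, hD]
    rcases h1 with e | e
    · rw [mul_eq_zero]; left
      rw [sub_eq_zero, div_eq_one_iff_eq hs0]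
      exact mul_right_cancel₀ (hρ0 j1) e
    · rw [mul_eq_zero]; right
      rw [sub_eq_zero, div_eq_iff hs0]
      refine mul_right_cancel₀ (hρ0 j1) ?_
      rw [e, mul_assoc, ← hSdef]
      field_simp
  set N : ι → F := fun i => G k i * σ (G k i) with hN
  have hrow : ∀ r r' : ι, ∑ i, G r i * σ (G r' i) = if r = r' then 1 else 0 := fun r r' => by
    have h1 := (hO.iso g hg).inv (ax r') (ax r)
    rw [sf, sf_ax_right] at h1
    simp only [inv_apply_eq (hO.iso g hg), sf_ax_left, hS.invol] at h1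
    simpa [hG, Pi.single_apply, eq_comm, mul_comm] using h1
  have s1 : ∑ i, N i = 1 := by simpa [hN] using hrow k k
  have s2 : ρ j1 * ∑ i, ν i * N i = 0 := by
    rw [Finset.mul_sum, ← show ∑ i, G k' i * σ (G k i) = 0 by simpa [Ne.symm hkk] using hrow k' k]
    refine Finset.sum_congr rfl fun i _ => ?_
    have := hG0 k i
    have := hG0 k j1
    have := hG0 k' j1
    simp only [hν, hN, hρ] at hs0 ⊢
    field_simp
  have s2' := (mul_eq_zero.1 s2).resolve_left hs0
  have hσν : ∀ i, σ (ν i) = ν i := fun i => by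
    rcases mul_eq_zero.1 (hν2 i) with e | e
    · rw [sub_eq_zero.1 e, map_one]
    · rw [sub_eq_zero.1 e, hD, map_pow, map_inv₀, hσS]
  have s3 : S * ∑ i, ν i ^ 2 * N i = 1 := by
    rw [Finset.mul_sum, ← show ∑ i, G k' i * σ (G k' i) = 1 by simpa using hrow k' k']
    refine Finset.sum_congr rfl fun i _ => ?_
    have e : G k' i = ν i * ρ j1 * G k i := by
      simp only [hν, hρ]
      have := hG0 k i
      have := hG0 k j1
      have := hG0 k' j1
      simp only [hρ] at hs0
      field_simp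
    rw [e, map_mul, map_mul, hσν, hSdef, hN]
    ring
  have s4 : ∑ i, ν i ^ 2 * N i = -D := by
    have : ∀ i, ν i ^ 2 * N i = (1 + D) * (ν i * N i) - D * N i := fun i => by
      linear_combination N i * hν2 i
    rw [Finset.sum_congr rfl fun i _ => this i, Finset.sum_sub_distrib, ← Finset.mul_sum, ← Finset.mul_sum,
      s2', s1]
    ring
  rw [s4, hD] at s3
  have hS1 : S = -1 := by field_simp at s3; linear_combination -s3
  have hD1 : D = 1 := by rw [hD, hS1]; norm_num
  refine zero_ne_one (α := F) ?_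
  rw [← s2', ← s1]
  refine Finset.sum_congr rfl fun i _ => ?_
  have := hν2 i
  rw [hD1, mul_self_eq_zero, sub_eq_zero] at this
  rw [this, one_mul]

/-- The conjugate of a torus element behind a permutation, at a chosen entry. -/
theorem perm_entry {g p : GL ι F} (hg : g ∈ M) {π : Equiv.Perm ι} {r : ι} {s : Fˣ}
    (hpj : ∀ j, (p : Matrix ι ι F) *ᵥ ax j = (if j = r then (s : F) else 1) • ax (π j)) (t : ι → Fˣ)
    (a i : ι) : (((g⁻¹ * (p * dg t) * g : GL ι F) : Matrix ι ι F) *ᵥ ax a) i =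
      ∑ j, (t j : F) * (((g : Matrix ι ι F) *ᵥ ax a) j * (if j = r then (s : F) else 1) *
        σ (((g : Matrix ι ι F) *ᵥ ax i) (π j))) := by
  rw [Units.val_mul, Units.val_mul, Units.val_mul, ← mulVec_mulVec, ← mulVec_mulVec, ← mulVec_mulVec,
    inv_apply_eq (hO.iso g hg), sum_col p, sf]
  rw [← Equiv.sum_comp π]
  refine Finset.sum_congr rfl fun j _ => ?_
  rw [Finset.sum_apply, Finset.sum_eq_single j (fun l _ hl => ?_) (by simp)]
  · simp [hpj, dg_mulVec, mul_assoc]
    split_ifs <;> simp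
  · simp [hpj]
    right
    split_ifs <;> simp [π.injective.ne (Ne.symm hl)]

/-- The case of ten unknowns and many values of the circle. -/
theorem ten_absurd (h10 : Fintype.card ι = 10) (hbig : ((2 : F) = 0 ∧ 8 ≤ q) ∨ 11 ≤ q) {g : GL ι F}
    (hg : g ∈ M) (hgm : ¬ IsMono g) : False := by
  classical
  have hS := hO.std
  have main : ∀ g ∈ M, ¬ IsMono g → ∀ (a i : ι) (π : Equiv.Perm ι) (k l : ι), k ≠ l →
      ((2 : F) = 0 ∧ 8 ≤ q) ∨ (11 ≤ q ∧ ∃ h, q = 2 * h + 1 ∧
        chi σ h (((g : Matrix ι ι F) *ᵥ ax a) k * ((g : Matrix ι ι F) *ᵥ ax a) l *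
          (((g : Matrix ι ι F) *ᵥ ax i) (π k) * ((g : Matrix ι ι F) *ᵥ ax i) (π l))) = -1) → False := by
    intro g hg hgm a i π k l hkl hkind
    obtain ⟨p, hp, s, hs, hpj⟩ := hO.exists_perm π a
    set c : ι → F := fun j => ((g : Matrix ι ι F) *ᵥ ax a) j * (if j = a then (s : F) else 1) *
      σ (((g : Matrix ι ι F) *ᵥ ax i) (π j)) with hc
    have hsj : ∀ j, Cir σ (if j = a then (s : F) else 1) := fun j => by
      split_ifs; exacts [hs, cir_one σ]
    have hc0 : ∀ j, c j ≠ 0 := fun j => mul_ne_zero (mul_ne_zero (hfull g hg hgm a j) (hsj j).ne_zero)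
      (by simpa using hfull g hg hgm i (π j))
    obtain ⟨t, htc, htp, hts, htb⟩ := exists_sol hS h10 hc0 hkl
      (hkind.imp id fun ⟨h11, h, hq, hh⟩ => ⟨h11, h, hq, by
        show chi σ h (c k * c l) = -1
        simp only [hc, chi_mul, chi_conj hS, chi_cir σ h (hsj k), chi_cir σ h (hsj l), mul_one]
        simp only [chi_mul] at hh
        linear_combination hh⟩)
      (Finset.univ.erase i) (by rw [Finset.card_erase_of_mem (Finset.mem_univ _), Finset.card_univ, h10])
      fun d j => (((p⁻¹ : GL ι F) : Matrix ι ι F) *ᵥ ((g : Matrix ι ι F) *ᵥ ax d)) j /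
        ((g : Matrix ι ι F) *ᵥ ax a) j
    set x := g⁻¹ * (p * dg t) * g with hx
    have hxM : x ∈ M := M.mul_mem (M.mul_mem (M.inv_mem hg) (M.mul_mem hp (hO.dg_mem htc htp))) hg
    have hz : ((x : Matrix ι ι F) *ᵥ ax a) i = 0 := by
      rw [hx, perm_entry hO hn hU hfull hg hpj]; exact hts
    have hxm : IsMono x := by
      by_contra h; exact hfull x hxM h a i hz
    obtain ⟨d, hd⟩ := hxm a
    obtain ⟨γ, hγ⟩ := Submodule.mem_span_singleton.1 hd
    have hdi : d ≠ i := fun e => by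
      have h1 := congrFun hγ i
      rw [Pi.smul_apply, e, Pi.single_eq_same, smul_eq_mul, mul_one, hz] at h1
      exact mulVec_ne_zero x (ax_ne_zero a) (by rw [← hγ, h1, zero_smul])
    obtain ⟨j, hj⟩ := htb d (Finset.mem_erase.2 ⟨hdi, Finset.mem_univ _⟩) γ
    refine hj ?_
    rw [mul_div_assoc', eq_div_iff (hfull g hg hgm a j), ← dg_mulVec]
    have h1 : (g : Matrix ι ι F) *ᵥ ((x : Matrix ι ι F) *ᵥ ax a) =
        (p : Matrix ι ι F) *ᵥ ((dg t : Matrix ι ι F) *ᵥ ((g : Matrix ι ι F) *ᵥ ax a)) := by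
      simp only [hx, Units.val_mul, ← mulVec_mulVec, mulVec_inv_mulVec]
    rw [← hγ, mulVec_smul] at h1
    have h2 := congrArg (fun y => (((p⁻¹ : GL ι F) : Matrix ι ι F) *ᵥ y) j) h1
    simp only [inv_mulVec_mulVec, mulVec_smul, Pi.smul_apply, smul_eq_mul] at h2
    exact h2.symm
  by_cases h2 : (2 : F) = 0 ∧ 8 ≤ q
  · obtain ⟨k, l, hkl⟩ := Fintype.exists_pair_of_one_lt_card (by omega : 1 < Fintype.card ι)
    exact main g hg hgm k k 1 k l hkl (Or.inl h2)
  have h11 : 11 ≤ q := hbig.resolve_left h2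
  obtain ⟨h, hq⟩ := odd_q hS (fun e => h2 ⟨e, by omega⟩)
  have hcol : ∀ g ∈ M, ¬ IsMono g → ∀ a k l : ι,
      chi σ h (((g : Matrix ι ι F) *ᵥ ax a) k) = chi σ h (((g : Matrix ι ι F) *ᵥ ax a) l) := by
    intro g hg hgm a k l
    set e : ι → F := fun j => chi σ h (((g : Matrix ι ι F) *ᵥ ax a) j) with he
    have he2 : ∀ j, e j * e j = 1 := fun j => by
      show chi σ h _ * chi σ h _ = 1
      rcases chi_sq hS hq (hfull g hg hgm a j) with h' | h' <;> rw [h'] <;> norm_num
    have hpr : ∀ k l, k ≠ l → ∀ k' l', k' ≠ l' → e k * e l * (e k' * e l') = 1 := by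
      intro k l hkl k' l' hkl'
      obtain ⟨π, hπk, hπl⟩ : ∃ π : Equiv.Perm ι, π k = k' ∧ π l = l' := by
        refine ⟨(Equiv.swap k k').trans (Equiv.swap (Equiv.swap k k' l) l'), ?_, ?_⟩
        · rw [Equiv.trans_apply, Equiv.swap_apply_left]
          refine Equiv.swap_apply_of_ne_of_ne (fun e => hkl ?_) hkl'
          apply (Equiv.swap k k').injective
          rw [Equiv.swap_apply_left]; exact e
        · rw [Equiv.trans_apply, Equiv.swap_apply_left]
      by_contra hne
      refine main g hg hgm a a π k l hkl (Or.inr ⟨h11, h, hq, ?_⟩)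
      rw [hπk, hπl, chi_mul, chi_mul, chi_mul]
      have hsq : (e k * e l * (e k' * e l')) ^ 2 = 1 := by
        rw [mul_pow, mul_pow, mul_pow]; simp [sq, he2]
      exact (sq_eq_one_iff.1 hsq).resolve_left hne
    rcases eq_or_ne k l with rfl | hkl
    · rfl
    obtain ⟨m, -, hm⟩ := Finset.exists_mem_notMem_of_card_lt_card (s := ({k, l} : Finset ι))
      (t := (Finset.univ : Finset ι))
      (by have := Finset.card_le_two (a := k) (b := l); rw [Finset.card_univ]; omega)
    simp only [Finset.mem_insert, Finset.mem_singleton, not_or] at hm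
    have h1 := hpr k m (Ne.symm hm.1) m l hm.2
    show e k = e l
    linear_combination e l * h1 - e k * e l * e l * he2 m - e k * he2 l
  refine uniform_absurd hO hn hU hfull hq (fun g hg hgm a b k l => ?_) hg hgm
  have h1 := hcol g⁻¹ (M.inv_mem hg) (fun h' => hgm (by simpa using h'.inv)) k a b
  simp only [inv_apply_eq (hO.iso g hg), sf_ax_left, chi_conj hS] at h1
  rw [h1, hcol g hg hgm b k l]

/-- Two columns with real weights and a torus solution give a contradiction. -/
theorem real_absurd {x : GL ι F} (hx : x ∈ M) (hxm : ¬ IsMono x) {i i' : ι} (hii : i ≠ i') {N : ι → F}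
    {ν κ : F} (hν : ∀ j, j ≠ i → j ≠ i' →
      ((x : Matrix ι ι F) *ᵥ ax i) j * σ (((x : Matrix ι ι F) *ᵥ ax i) j) = ν * N j)
    (hκ : ∀ j, j ≠ i → j ≠ i' →
      ((x : Matrix ι ι F) *ᵥ ax i) j * σ (((x : Matrix ι ι F) *ᵥ ax i') j) = κ * N j)
    (t : ι → Fˣ) (htc : ∀ j, Cir σ (t j : F)) (htp : ∏ j, t j = 1) (hti : t i = 1) (hti' : t i' = 1)
    (hne : ∃ j, t j ≠ 1) (hsum : ∑ j, ((t j : F) - 1) * N j = 0) : False := by
  classical
  set v := (x : Matrix ι ι F) *ᵥ ax i with hv
  set y := x⁻¹ * dg t * x with hy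
  have hyM : y ∈ M := M.mul_mem (M.mul_mem (M.inv_mem hx) (hO.dg_mem htc htp)) hx
  have hexp : ∀ b, ((y : Matrix ι ι F) *ᵥ ax i) b = sf σ v ((x : Matrix ι ι F) *ᵥ ax b) +
      ∑ j, ((t j : F) - 1) * (v j * σ (((x : Matrix ι ι F) *ᵥ ax b) j)) := fun b => by
    rw [hy, Units.val_mul, Units.val_mul, ← mulVec_mulVec, ← mulVec_mulVec, inv_apply_eq (hO.iso x hx),
      sf, sf, ← Finset.sum_add_distrib]
    refine Finset.sum_congr rfl fun j _ => ?_
    rw [dg_mulVec, hv]; ring
  have hmul : ∀ (w : ι → F) (μ : F), (∀ j, j ≠ i → j ≠ i' → v j * σ (w j) = μ * N j) →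
      ∑ j, ((t j : F) - 1) * (v j * σ (w j)) = 0 := by
    intro w μ hw
    have : ∀ j, ((t j : F) - 1) * (v j * σ (w j)) = μ * (((t j : F) - 1) * N j) := fun j => by
      rcases eq_or_ne j i with rfl | h1
      · simp [hti]
      rcases eq_or_ne j i' with rfl | h2
      · simp [hti']
      · rw [hw j h1 h2]; ring
    rw [Finset.sum_congr rfl fun j _ => this j, ← Finset.mul_sum, hsum, mul_zero]
  have h0 : ((y : Matrix ι ι F) *ᵥ ax i) i' = 0 := by
    rw [hexp, hmul _ κ hκ, hv, hO.iso x hx, sf_ax_right]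
    simp [Ne.symm hii]
  have h1 : ((y : Matrix ι ι F) *ᵥ ax i) i = 1 := by
    rw [hexp, hmul _ ν hν, hv, hO.iso x hx, sf_ax_self, add_zero]
  have hym : IsMono y := by
    by_contra h; exact hfull y hyM h i i' h0
  obtain ⟨d, hd⟩ := hym i
  rw [mem_axis_iff] at hd
  have hyi : (y : Matrix ι ι F) *ᵥ ax i = ax i := funext fun b => by
    rcases eq_or_ne b i with rfl | hb
    · rw [h1, Pi.single_eq_same]
    · have hdi : d = i := by
        by_contra hne'
        exact one_ne_zero (h1.symm.trans (hd i (Ne.symm hne')))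
      rw [Pi.single_eq_of_ne hb, hd b (hdi ▸ hb)]
  obtain ⟨j, hj⟩ := hne
  refine hj (Units.ext ?_)
  have h2 := congrArg (fun z => ((x : Matrix ι ι F) *ᵥ z) j) hyi
  simp only [hy, Units.val_mul, ← mulVec_mulVec, mulVec_inv_mulVec, dg_mulVec] at h2
  exact (mul_eq_right₀ (hfull x hx hxm i j)).1 h2

/-- Few values of the norm, odd characteristic. -/
theorem small_odd (h2 : (2 : F) ≠ 0) (hq9 : q ≤ 9) {g : GL ι F} (hg : g ∈ M) (hgm : ¬ IsMono g) :
    False := by
  classical
  have hS := hO.std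
  obtain ⟨h, hq⟩ := odd_q hS h2
  obtain ⟨a⟩ : Nonempty ι := Fintype.card_pos_iff.1 (by omega)
  set v := (g : Matrix ι ι F) *ᵥ ax a with hv
  have hv0 : ∀ i, v i ≠ 0 := hfull g hg hgm a
  obtain ⟨l, -, m, -, hlm, hN⟩ := exists_equal_norms hO (v := v) (S := Finset.univ) (fun i _ => hv0 i)
    (by rw [Finset.card_univ]; omega)
  obtain ⟨l', hl', m', hm', hlm', hN'⟩ := exists_equal_norms hO (v := v) (S := Finset.univ.erase m)
    (fun i _ => hv0 i)
    (by rw [Finset.card_erase_of_mem (Finset.mem_univ _), Finset.card_univ]; omega)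
  have hml' := Finset.ne_of_mem_erase hl'
  have hmm' := Finset.ne_of_mem_erase hm'
  have hratio : ∀ {l m : ι}, v l * σ (v l) = v m * σ (v m) → Cir σ (v m / v l) := fun {l m} e => by
    show v m / v l * σ (v m / v l) = 1
    have : σ (v l) ≠ 0 := by simpa using hv0 l
    rw [map_div₀, div_mul_div_comm, ← e, div_self (mul_ne_zero (hv0 l) this)]
  set s : Fˣ := Units.mk0 (v m / v l) (div_ne_zero (hv0 m) (hv0 l)) with hs
  have hsc : Cir σ (s : F) := hratio hN
  set s' : Fˣ := Units.mk0 (v m' / v l') (div_ne_zero (hv0 m') (hv0 l')) with hs'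
  have hsc' : Cir σ (s' : F) := hratio hN'
  have hci : ∀ (l m : ι) (s : Fˣ), Cir σ (s : F) →
      ∀ i, Cir σ (((if i = l then s else if i = m then s⁻¹ else 1) : Fˣ) : F) := by
    intro l m s hs i
    split_ifs
    exacts [hs, by rw [Units.val_inv_eq_inv_val]; exact hs.inv, cir_one σ]
  have hdet : ∀ {l m : ι}, l ≠ m → ∀ s : Fˣ, (monoGL (Equiv.swap l m)
      (fun i => if i = l then s else if i = m then s⁻¹ else 1) : Matrix ι ι F).det = -1 := by
    intro l m hlm s
    set χ : Module.Dual F (ι → F) :=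
      (2 : F)⁻¹ • (LinearMap.proj l - (s : F)⁻¹ • LinearMap.proj m) with hχ
    have hχy : χ (ax l - (s : F) • ax m) = 1 := by
      have := s.ne_zero
      simp [hχ, hlm, Ne.symm hlm]
      field_simp
      ring
    rw [show monoGL (Equiv.swap l m) (fun i => if i = l then s else if i = m then s⁻¹ else 1) =
      refl χ hχy (-1) from ext_mulVec fun x => by
        rw [swap_formula hlm, refl_mulVec, sub_eq_add_neg, ← neg_smul]
        congr 2
        simp [hχ]
        field_simp
        ring, det_refl]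
    simp
  set S0 := monoGL (Equiv.swap l m) (fun i => if i = l then s else if i = m then s⁻¹ else 1) with hS0
  set S1 := monoGL (Equiv.swap l' m') (fun i => if i = l' then s' else if i = m' then s'⁻¹ else 1) with hS1
  set φ0 : (ι → F) → F := fun x => x l - (s : F)⁻¹ * x m
  set φ1 : (ι → F) → F := fun x => x l' - (s' : F)⁻¹ * x m'
  set y0 : ι → F := ax l - (s : F) • ax m
  set y1 : ι → F := ax l' - (s' : F) • ax m'
  have hS0x : ∀ x, (S0 : Matrix ι ι F) *ᵥ x = x - φ0 x • y0 := swap_formula hlm s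
  have hS1x : ∀ x, (S1 : Matrix ι ι F) *ᵥ x = x - φ1 x • y1 := swap_formula hlm' s'
  have hφ0v : φ0 v = 0 := by
    have := hv0 l; have := hv0 m
    simp only [φ0, hs, Units.val_mk0]; field_simp; ring
  have hφ1v : φ1 v = 0 := by
    have := hv0 l'; have := hv0 m'
    simp only [φ1, hs', Units.val_mk0]; field_simp; ring
  have hhM : S0 * S1 ∈ M := by
    refine hO.mono_mem _ ((iso_monoGL _ _ (hci l m s hsc)).mul (iso_monoGL _ _ (hci l' m' s' hsc'))) ?_
      ((isMono_monoGL _ _).mul (isMono_monoGL _ _))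
    rw [PseudoRefl.mem_specialLinear_iff, Units.val_mul, det_mul, hS0, hS1, hdet hlm, hdet hlm']
    norm_num
  set x := g⁻¹ * (S0 * S1) * g with hx
  have hxm : IsMono x := by
    refine hU _ (M.mul_mem (M.mul_mem (M.inv_mem hg) hhM) hg) a ?_
    rw [Units.val_mul, Units.val_mul, Units.val_mul, ← mulVec_mulVec, ← mulVec_mulVec, ← mulVec_mulVec,
      ← hv, hS1x, hφ1v, zero_smul, sub_zero, hS0x, hφ0v, zero_smul, sub_zero, hv, inv_mulVec_mulVec]
    exact Submodule.mem_span_singleton_self _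
  set u0 := ((g⁻¹ : GL ι F) : Matrix ι ι F) *ᵥ y0 with hu0
  set u1 := ((g⁻¹ : GL ι F) : Matrix ι ι F) *ᵥ y1 with hu1
  have hxy : ∀ z, (x : Matrix ι ι F) *ᵥ z - z =
      (-φ0 ((S1 : Matrix ι ι F) *ᵥ ((g : Matrix ι ι F) *ᵥ z))) • u0 +
        (-φ1 ((g : Matrix ι ι F) *ᵥ z)) • u1 := fun z => by
    rw [hx, Units.val_mul, Units.val_mul, Units.val_mul, ← mulVec_mulVec, ← mulVec_mulVec, ← mulVec_mulVec,
      hS0x]
    conv_lhs => rw [hS1x]; rw [mulVec_sub, mulVec_sub, inv_mulVec_mulVec, mulVec_smul, mulVec_smul]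
    rw [hS1x]
    simp only [← hu0, ← hu1]
    module
  have hsupp : (Finset.univ.filter fun i => u0 i ≠ 0).card ≤ 6 := by
    have hφ1m : φ1 (ax m) = 0 := by simp [φ1, hml', hmm']
    have hz := hxy (((g⁻¹ : GL ι F) : Matrix ι ι F) *ᵥ ax m)
    rw [mulVec_inv_mulVec, hS1x, hφ1m, zero_smul, sub_zero, neg_zero, zero_smul, add_zero] at hz
    refine card_supp_le_six hxm (u := u0) (w := u1) (fun z => hxy z ▸ ?_) hz fun i hi => ?_
    · exact Submodule.add_mem _ (Submodule.smul_mem _ _ (Submodule.subset_span (Or.inl rfl)))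
        (Submodule.smul_mem _ _ (Submodule.subset_span (Or.inr rfl)))
    · have := s.ne_zero
      rw [Pi.smul_apply, smul_eq_mul]
      exact mul_ne_zero (by simp [φ0, hlm]) (Finset.mem_filter.1 hi).2
  obtain ⟨i, hi, i', hi', hii⟩ := Finset.one_lt_card.1
    (show 1 < (Finset.univ.filter fun i => ¬ u0 i ≠ 0).card by
      have h3 := Finset.card_filter_add_card_filter_not (s := (Finset.univ : Finset ι)) (fun i => u0 i ≠ 0)
      rw [Finset.card_univ] at h3
      omega)
  have hfix : ∀ {b}, ¬ u0 b ≠ 0 → φ0 ((g : Matrix ι ι F) *ᵥ ax b) = 0 := fun {b} hb => by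
    have h1 := congrArg σ (not_not.1 hb)
    rw [hu0, inv_apply_eq (hO.iso g hg), map_zero, sf, map_sum,
      Fintype.sum_eq_add l m hlm fun r hr => by simp [y0, hr.1, hr.2]] at h1
    simp [y0, hlm, Ne.symm hlm, hS.invol, hsc.conj_eq] at h1
    simp [φ0]
    linear_combination h1
  obtain ⟨k, -, hk⟩ := Finset.exists_mem_notMem_of_card_lt_card (s := ({l, m} : Finset ι))
    (t := (Finset.univ : Finset ι))
    (by have := Finset.card_le_two (a := l) (b := m); rw [Finset.card_univ]; omega)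
  simp only [Finset.mem_insert, Finset.mem_singleton, not_or] at hk
  set Rk := uRefl hS (sf_ax_self (σ := σ) k) (-1) with hRk
  have hneg : Cir σ (((-1 : Fˣ)) : F) := by rw [Units.val_neg, Units.val_one]; exact cir_neg_one σ
  have hh2M : S0 * Rk ∈ M := by
    refine hO.mono_mem _ ((iso_monoGL _ _ (hci l m s hsc)).mul (uRefl_iso _ _ hneg)) ?_
      ((isMono_monoGL _ _).mul (by rw [hRk, uRefl_ax_eq_dg]; exact isMono_dg _))
    rw [PseudoRefl.mem_specialLinear_iff, Units.val_mul, det_mul, hS0, hdet hlm, hRk, det_uRefl]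
    simp
  set x' := g⁻¹ * (S0 * Rk) * g with hx'
  have hx'M : x' ∈ M := M.mul_mem (M.mul_mem (M.inv_mem hg) hh2M) hg
  have hRy : ∀ y, (Rk : Matrix ι ι F) *ᵥ y = y + (-2 * y k) • ax k := fun y => by
    rw [hRk, uRefl_mulVec, sf_ax_right, Units.val_neg, Units.val_one]
    congr 2; ring
  have hφk : φ0 (ax k) = 0 := by simp [φ0, Ne.symm hk.1, Ne.symm hk.2]
  have hh2 : ∀ y, ((S0 * Rk : GL ι F) : Matrix ι ι F) *ᵥ y - y =
      (-φ0 y) • y0 + (-2 * y k) • ax k := fun y => by
    rw [Units.val_mul, ← mulVec_mulVec, hRy, mulVec_add, mulVec_smul, hS0x, hS0x, hφk, zero_smul, sub_zero]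
    module
  have hx'y : ∀ y, (x' : Matrix ι ι F) *ᵥ y - y = (-φ0 ((g : Matrix ι ι F) *ᵥ y)) • u0 +
      (-2 * ((g : Matrix ι ι F) *ᵥ y) k) • (((g⁻¹ : GL ι F) : Matrix ι ι F) *ᵥ ax k) := fun y => by
    have := congrArg (fun z => ((g⁻¹ : GL ι F) : Matrix ι ι F) *ᵥ z) (hh2 ((g : Matrix ι ι F) *ᵥ y))
    simp only [mulVec_sub, mulVec_add, mulVec_smul, inv_mulVec_mulVec] at this
    rw [hx', Units.val_mul _ g, Units.val_mul, ← mulVec_mulVec, ← mulVec_mulVec]
    exact this
  have hx'm : ¬ IsMono x' := fun hm => by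
    refine plane_absurd hO hn hU hg hgm hm (e := ax k) (e' := u0) (fun y => hx'y y ▸ ?_) k
      (c := -2) (neg_ne_zero.2 h2) (y₀ := ((g⁻¹ : GL ι F) : Matrix ι ι F) *ᵥ ax k) ?_
    · exact Submodule.add_mem _ (Submodule.smul_mem _ _ (Submodule.subset_span (Or.inr rfl)))
        (Submodule.smul_mem _ _ (Submodule.subset_span (Or.inl rfl)))
    · rw [hx'y, mulVec_inv_mulVec, hφk]
      simp
  set G : ι → F := fun j => ((g : Matrix ι ι F) *ᵥ ax j) k
  have hcolx : ∀ {b}, ¬ u0 b ≠ 0 → ∀ j, j ≠ b →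
      ((x' : Matrix ι ι F) *ᵥ ax b) j = -2 * G b * σ (G j) := fun {b} hb j hj => by
    have := congrFun (hx'y (ax b)) j
    rw [hfix hb, neg_zero, zero_smul, zero_add, Pi.sub_apply, Pi.single_eq_of_ne hj, sub_zero,
      Pi.smul_apply, smul_eq_mul, inv_apply_eq (hO.iso g hg), sf_ax_left] at this
    exact this
  have hib := (Finset.mem_filter.1 hi).2
  have hib' := (Finset.mem_filter.1 hi').2
  set N : ι → F := fun j => G j * σ (G j) with hNdef
  have hN0 : ∀ j, N j ≠ 0 := fun j =>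
    mul_ne_zero (hfull g hg hgm j k) ((map_ne_zero σ).2 (hfull g hg hgm j k))
  have finish : ∀ t : ι → Fˣ, (∀ j, Cir σ (t j : F)) → ∏ j, t j = 1 → t i = 1 → t i' = 1 →
      (∃ j, t j ≠ 1) → ∑ j, ((t j : F) - 1) * N j = 0 → False :=
    fun t h1 h2' h3 h4 h5 h6 => real_absurd hO hn hU hfull hx'M hx'm hii
      (N := N) (ν := 4 * (G i * σ (G i))) (κ := 4 * (G i * σ (G i')))
      (fun j hj _ => by
        rw [hcolx hib j hj, map_mul, map_mul, map_neg, map_ofNat, hS.invol, hNdef]; ring)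
      (fun j hj hj' => by
        rw [hcolx hib j hj, hcolx hib' j hj', map_mul, map_mul, map_neg, map_ofNat, hS.invol, hNdef]; ring)
      t h1 h2' h3 h4 h5 h6
  set J := ((Finset.univ : Finset ι).erase i).erase i' with hJ
  have hJc : 8 ≤ J.card := by
    rw [hJ, Finset.card_erase_of_mem (Finset.mem_erase.2 ⟨Ne.symm hii, Finset.mem_univ _⟩),
      Finset.card_erase_of_mem (Finset.mem_univ _), Finset.card_univ]
    omega
  have hJm : ∀ j ∈ J, j ≠ i ∧ j ≠ i' := fun j hj => by
    simp only [hJ, Finset.mem_erase] at hj; exact ⟨hj.2.1, hj.1⟩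
  by_cases hopp : ∃ j ∈ J, ∃ j' ∈ J, j ≠ j' ∧ N j + N j' = 0
  · obtain ⟨j, hj, j', hj', hjj, hsum⟩ := hopp
    refine finish (torPair j j' (-1)) (fun r => ?_) (prod_torPair hjj _) ?_ ?_ ⟨j, ?_⟩ ?_
    · unfold torPair; split_ifs <;> simp [Cir]
    · simp [torPair, Ne.symm (hJm j hj).1, Ne.symm (hJm j' hj').1]
    · simp [torPair, Ne.symm (hJm j hj).2, Ne.symm (hJm j' hj').2]
    · intro e
      refine h2 ?_
      have e' := congrArg Units.val e
      simp [torPair] at e'
      linear_combination -e'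
    · rw [Fintype.sum_eq_add j j' hjj fun r hr => by simp [torPair, hr.1, hr.2]]
      simp [torPair, Ne.symm hjj]
      linear_combination (-2 : F) * hsum
  push Not at hopp
  have hσN : ∀ j, σ (N j) = N j := fun j => norm_fixed hS.card hS.frob _
  set Fx := (Finset.univ.filter fun z : F => σ z = z).erase 0 with hFx
  have hFxc : Fx.card = q - 1 := by
    rw [hFx, Finset.card_erase_of_mem (by simp), card_fixed hS.card hS.frob]
  have hsqc : (Fx.image fun z => z ^ 2).card ≤ h := by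
    have hmem : (Fx.image fun z => z ^ 2) ⊆ (Polynomial.nthRoots h (1 : F)).toFinset := fun w hw => by
      obtain ⟨z, hz, rfl⟩ := Finset.mem_image.1 hw
      obtain ⟨hz0, hzF⟩ := Finset.mem_erase.1 hz
      rw [Multiset.mem_toFinset, Polynomial.mem_nthRoots (by have := hS.two_le; omega), ← pow_mul]
      refine mul_right_cancel₀ hz0 ?_
      rw [← pow_succ, one_mul, show 2 * h + 1 = q by omega, ← hS.frob]
      exact (Finset.mem_filter.1 hzF).2
    exact (Finset.card_le_card hmem).trans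
      ((Multiset.toFinset_card_le _).trans (Polynomial.card_nthRoots _ _))
  have pick : ∀ T : Finset ι, T ⊆ J → h < T.card → ∃ j ∈ T, ∃ j' ∈ T, j ≠ j' ∧ N j = N j' := by
    intro T hT hTc
    obtain ⟨j, hj, j', hj', hjj, e⟩ := Finset.exists_ne_map_eq_of_card_lt_of_maps_to
      (t := Fx.image fun z => z ^ 2) (f := fun j => N j ^ 2) (hsqc.trans_lt hTc) (fun r _ =>
        Finset.mem_coe.2 (Finset.mem_image.2 ⟨N r, Finset.mem_erase.2
          ⟨hN0 r, Finset.mem_filter.2 ⟨Finset.mem_univ _, hσN r⟩⟩, rfl⟩))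
    refine ⟨j, hj, j', hj', hjj, ?_⟩
    rcases sq_eq_sq_iff_eq_or_eq_neg.1 e with e | e
    · exact e
    · exact absurd (by rw [e, neg_add_cancel]) (hopp j (hT hj) j' (hT hj') hjj)
  obtain ⟨j1, h1, j2, h2', h12, hU1⟩ := pick J (Finset.Subset.refl _) (by omega)
  obtain ⟨j3, h3, j4, h4, h34, hV⟩ := pick ((J.erase j1).erase j2)
    ((Finset.erase_subset _ _).trans (Finset.erase_subset _ _)) (by
      rw [Finset.card_erase_of_mem (Finset.mem_erase.2 ⟨Ne.symm h12, h2'⟩), Finset.card_erase_of_mem h1]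
      omega)
  simp only [Finset.mem_erase] at h3 h4
  set C1 := (Finset.univ.filter fun z : F => Cir σ z).erase 1 with hC1
  have hC1c : C1.card = q := by
    rw [hC1, Finset.card_erase_of_mem (by simp [cir_one]), card_cir hS.card hS.frob]; omega
  set D := C1.image fun z => z + z⁻¹ - 2 with hD
  have hDc : q ≤ 2 * D.card := by
    rw [← hC1c]
    refine Finset.card_le_mul_card_image C1 2 fun r _ => ?_
    have hne : (Polynomial.X ^ 2 - Polynomial.C (r + 2) * Polynomial.X + Polynomial.C (1 : F)) ≠ 0 := by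
      intro e
      simpa using congrArg (Polynomial.eval 0) e
    refine (Finset.card_le_card (t := (Polynomial.roots (Polynomial.X ^ 2 - Polynomial.C (r + 2) *
      Polynomial.X + Polynomial.C (1 : F))).toFinset) fun z hz => ?_).trans
      ((Multiset.toFinset_card_le _).trans ((Polynomial.card_roots' _).trans (by compute_degree)))
    obtain ⟨hz, e⟩ := Finset.mem_filter.1 hz
    have hz0 : z ≠ 0 := (Finset.mem_filter.1 (Finset.mem_of_mem_erase hz)).2.ne_zero
    rw [Multiset.mem_toFinset, Polynomial.mem_roots hne]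
    simp [← e]
    field_simp
    ring
  have hDF : D ⊆ Fx := fun w hw => by
    obtain ⟨z, hz, rfl⟩ := Finset.mem_image.1 hw
    obtain ⟨hz1, hzc⟩ := Finset.mem_erase.1 hz
    have hzc : Cir σ z := (Finset.mem_filter.1 hzc).2
    refine Finset.mem_erase.2 ⟨fun e => hz1 ?_, Finset.mem_filter.2 ⟨Finset.mem_univ _, ?_⟩⟩
    · have := hzc.ne_zero
      field_simp at e
      exact sub_eq_zero.1 (pow_eq_zero_iff (show 2 ≠ 0 by norm_num) |>.1
        (show (z - 1) ^ 2 = 0 by linear_combination e))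
    · rw [map_sub, map_add, map_inv₀, map_ofNat, hzc.conj_eq, inv_inv]; ring
  set D' := D.image fun d => -(N j3 / N j1) * d with hD'
  have hD'c : D'.card = D.card := Finset.card_image_of_injective _ fun p r e =>
    mul_left_cancel₀ (neg_ne_zero.2 (div_ne_zero (hN0 j3) (hN0 j1))) e
  have hD'F : D' ⊆ Fx := fun w hw => by
    obtain ⟨d, hd, rfl⟩ := Finset.mem_image.1 hw
    obtain ⟨hd0, hdF⟩ := Finset.mem_erase.1 (hDF hd)
    refine Finset.mem_erase.2 ⟨mul_ne_zero (neg_ne_zero.2 (div_ne_zero (hN0 j3) (hN0 j1))) hd0,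
      Finset.mem_filter.2 ⟨Finset.mem_univ _, ?_⟩⟩
    rw [map_mul, map_neg, map_div₀, hσN, hσN, (Finset.mem_filter.1 hdF).2]
  obtain ⟨w, hw⟩ : (D ∩ D').Nonempty := by
    rw [← Finset.card_pos]
    have h5 := Finset.card_union_add_card_inter D D'
    have h6 := Finset.card_le_card (Finset.union_subset hDF hD'F)
    omega
  obtain ⟨hwD, hwD'⟩ := Finset.mem_inter.1 hw
  obtain ⟨ε0, hε, rfl⟩ := Finset.mem_image.1 hwD
  obtain ⟨d, hd, hwd⟩ := Finset.mem_image.1 hwD'
  obtain ⟨δ0, hδ, rfl⟩ := Finset.mem_image.1 hd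
  obtain ⟨hε1, hεc⟩ := Finset.mem_erase.1 hε
  have hεc : Cir σ ε0 := (Finset.mem_filter.1 hεc).2
  have hδc : Cir σ δ0 := (Finset.mem_filter.1 (Finset.mem_of_mem_erase hδ)).2
  set ε : Fˣ := Units.mk0 ε0 hεc.ne_zero
  set δ : Fˣ := Units.mk0 δ0 hδc.ne_zero
  have ne13 : j1 ≠ j3 := Ne.symm h3.2.1
  have ne14 : j1 ≠ j4 := Ne.symm h4.2.1
  have ne23 : j2 ≠ j3 := Ne.symm h3.1
  have ne24 : j2 ≠ j4 := Ne.symm h4.1
  refine finish (fun r => torPair j1 j2 ε r * torPair j3 j4 δ r) (fun r => ?_) ?_ ?_ ?_ ⟨j1, ?_⟩ ?_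
  · rw [Units.val_mul]
    refine Cir.mul ?_ ?_ <;>
    · unfold torPair
      split_ifs
      · assumption
      · rw [Units.val_inv_eq_inv_val]; exact Cir.inv ‹_›
      · exact cir_one σ
  · rw [Finset.prod_mul_distrib, prod_torPair h12, prod_torPair h34, one_mul]
  · simp [torPair, Ne.symm (hJm _ h1).1, Ne.symm (hJm _ h2').1, Ne.symm (hJm _ h3.2.2).1,
      Ne.symm (hJm _ h4.2.2).1]
  · simp [torPair, Ne.symm (hJm _ h1).2, Ne.symm (hJm _ h2').2, Ne.symm (hJm _ h3.2.2).2,
      Ne.symm (hJm _ h4.2.2).2]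
  · intro e
    have e' := congrArg Units.val e
    simp [torPair, ne13, ne14, ε] at e'
    exact hε1 e'
  · have hsub : ∀ r ∉ ({j1, j2, j3, j4} : Finset ι),
        (((torPair j1 j2 ε r * torPair j3 j4 δ r : Fˣ) : F) - 1) * N r = 0 := fun r hr => by
      simp only [Finset.mem_insert, Finset.mem_singleton, not_or] at hr
      simp [torPair, hr.1, hr.2.1, hr.2.2.1, hr.2.2.2]
    rw [← Finset.sum_subset (Finset.subset_univ ({j1, j2, j3, j4} : Finset ι)) (fun r _ hr => hsub r hr),
      Finset.sum_insert (by simp [h12, ne13, ne14]), Finset.sum_insert (by simp [ne23, ne24]),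
      Finset.sum_insert (by simp [h34]), Finset.sum_singleton]
    simp [torPair, h12, Ne.symm h12, ne13, Ne.symm ne13, ne14, Ne.symm ne14, ne23, Ne.symm ne23, ne24,
      Ne.symm ne24, h34, Ne.symm h34, ε, δ, ← hU1, ← hV]
    have hc : N j3 / N j1 * N j1 = N j3 := div_mul_cancel₀ _ (hN0 j1)
    simp only [hNdef] at hwd hc ⊢
    linear_combination (-(G j1 * σ (G j1))) * hwd - (δ0 + δ0⁻¹ - 2) * hc

end CfsgLib.UnitMono91
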