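import Mathlib
import Cfsg.Agent.UnitMono91.Zero

/-!
Dimensions ten and twelve: a proper overgroup of the special monomial unitary group has a
non-monomial element fixing an axis.
-/

set_option autoImplicit false
set_option linter.unusedSectionVars false

namespace CfsgLib.UnitMono91

open Matrix CfsgLib.UnitMono CfsgLib.TransvGL CfsgLib.MonoBasics CfsgLib.UnitCentres CfsgLib.PseudoRefl
  CfsgLib.CircleSums

variable {ι : Type} [Fintype ι] [DecidableEq ι] {F : Type*} [Field F] [Fintype F]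
variable {q : ℕ} {σ : F ≃+* F} {M : Subgroup (GL ι F)}

local notation "ax" i:max => (Pi.single i (1 : F) : ι → F)

variable (hO : Over q σ M) (hn : 10 ≤ Fintype.card ι)
  (hU : ∀ h : GL ι F, h ∈ M → ∀ a : ι,
    (h : Matrix ι ι F) *ᵥ (Pi.single a (1 : F) : ι → F) ∈
      Submodule.span F {(Pi.single a (1 : F) : ι → F)} → IsMono h)
include hO hn hU

theorem twelve_absurd (h12 : Fintype.card ι = 12) (hq3 : 3 ≤ q)
    (hfull : ∀ g ∈ M, ¬ IsMono g → ∀ a k, ((g : Matrix ι ι F) *ᵥ Pi.single a (1 : F)) k ≠ 0)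
    {g₀ : GL ι F} (hg₀ : g₀ ∈ M) (hgm : ¬ IsMono g₀) : False := by
  classical
  obtain ⟨a0⟩ : Nonempty ι := Fintype.card_pos_iff.1 (by omega)
  set v := (g₀ : Matrix ι ι F) *ᵥ ax a0 with hv
  have hv0 : ∀ i, v i ≠ 0 := hfull g₀ hg₀ hgm a0
  set c : ι → F := fun i => (g₀ : Matrix ι ι F) a0 i * v i with hc
  have hc0 : ∀ i, c i ≠ 0 := fun i => mul_ne_zero (by rw [← col_apply]; exact hfull g₀ hg₀ hgm i a0) (hv0 i)
  obtain ⟨s, hs5, hsco⟩ : ∃ s, s = 5 ∧ Nat.Coprime s (Fintype.card ι) := ⟨5, rfl, by rw [h12]; decide⟩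
  obtain ⟨A, -, hAc⟩ := Finset.exists_subset_card_eq (s := (Finset.univ : Finset ι)) (n := s)
    (by rw [Finset.card_univ]; omega)
  obtain ⟨P, hPA, hP4⟩ := Finset.exists_subset_card_eq (s := A) (n := 4) (by omega)
  obtain ⟨Q, hQA, hQ4⟩ := Finset.exists_subset_card_eq (s := Aᶜ) (n := 4) (by
    rw [Finset.card_compl]; omega)
  obtain ⟨l₀, hl₀, hl₀'⟩ := Finset.exists_mem_notMem_of_card_lt_card (s := P) (t := A) (by omega)
  obtain ⟨l₁, hl₁, hl₁'⟩ := Finset.exists_mem_notMem_of_card_lt_card (s := Q) (t := Aᶜ) (by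
    rw [Finset.card_compl]; omega)
  obtain ⟨t, htc, htp, hts, -, htax⟩ := exists_off_axis hO.std g₀ v (c := c) (A := A) (P := P) (Q := Q)
    (E := Finset.univ \ (P ∪ Q ∪ {l₀, l₁})) (hAc ▸ hsco) hPA
    (Finset.disjoint_left.2 fun i hi => Finset.mem_compl.1 (hQA hi)) hP4 hQ4
    (fun i _ => hc0 i) (fun i _ => hc0 i) ⟨hl₀, hl₀'⟩ ⟨Finset.mem_compl.1 hl₁, hl₁'⟩ (hv0 _) (hv0 _)
    (fun i hi => by
      simp only [Finset.mem_sdiff, Finset.mem_union, Finset.mem_insert, Finset.mem_singleton, not_or] at hi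
      exact ⟨hi.2.1.1, hi.2.1.2, hi.2.2.1, hi.2.2.2, hv0 i⟩)
    (by
      have h1 := Finset.card_union_le (P ∪ Q) {l₀, l₁}
      have h2 := Finset.card_union_le P Q
      have h3 := Finset.card_le_two (a := l₀) (b := l₁)
      have h4 := Finset.le_card_sdiff (P ∪ Q ∪ {l₀, l₁}) (Finset.univ : Finset ι)
      rw [Finset.card_univ] at h4
      exact lt_of_lt_of_le (show Fintype.card ι < (q + 1) ^ 2 by rw [h12]; nlinarith)
        (Nat.pow_le_pow_right (by omega) (by omega)))
  set g := g₀ * dg t * g₀ with hg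
  have hgM : g ∈ M := M.mul_mem (M.mul_mem hg₀ (hO.dg_mem htc htp)) hg₀
  have hcol : (g : Matrix ι ι F) *ᵥ ax a0 = (g₀ : Matrix ι ι F) *ᵥ ((dg t : Matrix ι ι F) *ᵥ v) := by
    rw [hg, Units.val_mul, Units.val_mul, ← mulVec_mulVec, ← mulVec_mulVec]
  refine hfull g hgM (fun hm => ?_) a0 a0 ?_
  · obtain ⟨d, hd⟩ := hm a0
    exact htax d (hcol ▸ hd)
  · rw [hcol, ← hts]
    simp only [mulVec, dotProduct]
    refine Finset.sum_congr rfl fun i _ => ?_
    have := dg_mulVec t v i
    simp only [mulVec, dotProduct] at this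
    rw [this, hc]
    ring


theorem case_even (h2 : (2 : F) = 0) (hq4 : q ≤ 4)
    {g : GL ι F} (hg : g ∈ M) (hgm : ¬ IsMono g) : False := by
  classical
  obtain ⟨a⟩ : Nonempty ι := Fintype.card_pos_iff.1 (by omega)
  have hz1 : ∀ a, (Finset.univ.filter fun i => ((g : Matrix ι ι F) *ᵥ ax a) i = 0).card ≤ 1 := by
    intro a
    refine Finset.card_le_one.2 fun i hi j hj => ?_
    by_contra hij
    exact one_zero hO hn hU hg hgm hij (Finset.mem_filter.1 hi).2 (Finset.mem_filter.1 hj).2
  set v := (g : Matrix ι ι F) *ᵥ ax a with hv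
  have hzv : (Finset.univ.filter fun i => v i = 0).card ≤ 1 := hz1 a
  obtain ⟨l, hl, m, hm, hlm, hN⟩ := exists_equal_norms hO (v := v)
    (S := Finset.univ.filter fun i => v i ≠ 0) (fun i hi => (Finset.mem_filter.1 hi).2) (by
      have h1 : (Finset.univ : Finset ι).card ≤
          (Finset.univ.filter fun i => v i = 0).card + (Finset.univ.filter fun i => v i ≠ 0).card := by
        refine le_trans (Finset.card_le_card fun i _ => ?_) (Finset.card_union_le _ _)
        simp [em]
      have := hzv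
      rw [Finset.card_univ] at h1
      omega)
  have hvl : v l ≠ 0 := (Finset.mem_filter.1 hl).2
  have hvm : v m ≠ 0 := (Finset.mem_filter.1 hm).2
  set s : Fˣ := Units.mk0 (v m / v l) (div_ne_zero hvm hvl) with hs
  have hsc : Cir σ (s : F) := by
    show v m / v l * σ (v m / v l) = 1
    have : σ (v l) ≠ 0 := by simpa using hvl
    rw [map_div₀, div_mul_div_comm, ← hN, div_self (mul_ne_zero hvl this)]
  set S0 := monoGL (Equiv.swap l m) (fun i => if i = l then s else if i = m then s⁻¹ else 1) with hS0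
  set φ : Module.Dual F (ι → F) := LinearMap.proj l - (s : F)⁻¹ • LinearMap.proj m with hφ
  set y : ι → F := -(ax l - (s : F) • ax m) with hy
  have hφy : φ y = 0 := by
    have := s.ne_zero
    simp [hφ, hy, hlm, Ne.symm hlm]
    field_simp
    linear_combination -h2
  have hS0eq : S0 = transv hφy := ext_mulVec fun x => by
    rw [hS0, swap_formula hlm, transv_mulVec, hy, smul_neg, ← sub_eq_add_neg]
    rfl
  have hsM : S0 ∈ M := by
    refine hO.mono_mem _ (iso_monoGL _ _ fun i => ?_) ?_ (isMono_monoGL _ _)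
    · split_ifs
      · exact hsc
      · rw [Units.val_inv_eq_inv_val]; exact hsc.inv
      · exact cir_one σ
    · rw [hS0eq]; exact transv_mem_specialLinear _
  set z := ((g⁻¹ : GL ι F) : Matrix ι ι F) *ᵥ y with hz
  have hxy : ∀ x, ((g⁻¹ * S0 * g : GL ι F) : Matrix ι ι F) *ᵥ x =
      x + φ ((g : Matrix ι ι F) *ᵥ x) • z := fun x => by
    rw [Units.val_mul, Units.val_mul, ← mulVec_mulVec, ← mulVec_mulVec, hS0eq, transv_mulVec,
      mulVec_add, inv_mulVec_mulVec, mulVec_smul]
  have hxm : IsMono (g⁻¹ * S0 * g) := by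
    refine hU _ (M.mul_mem (M.mul_mem (M.inv_mem hg) hsM) hg) a ?_
    rw [hxy, show φ v = 0 by simp [hφ, hs]; field_simp; ring, zero_smul, add_zero]
    exact Submodule.mem_span_singleton_self _
  -- the centre has support two
  have hzz : sf σ z z = 0 := by
    rw [hz, (hO.iso g hg).inv, hy]
    simp [sf, Finset.sum_add_distrib, Pi.single_apply, apply_ite σ, sub_mul, mul_sub,
      Finset.sum_sub_distrib, hlm, Ne.symm hlm]
    linear_combination (id hsc : (s : F) * σ (s : F) = 1) + h2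
  obtain ⟨j, hj⟩ : ∃ j, φ ((g : Matrix ι ι F) *ᵥ ax j) ≠ 0 := by
    by_contra hno
    push Not at hno
    have h0 : φ = 0 := by
      refine LinearMap.ext fun x => ?_
      rw [← mulVec_inv_mulVec g x, ← Finset.univ_sum_single (((g⁻¹ : GL ι F) : Matrix ι ι F) *ᵥ x),
        mulVec_sum, map_sum, LinearMap.zero_apply]
      refine Finset.sum_eq_zero fun i _ => ?_
      rw [show Pi.single i ((((g⁻¹ : GL ι F) : Matrix ι ι F) *ᵥ x) i) =
        (((g⁻¹ : GL ι F) : Matrix ι ι F) *ᵥ x) i • ax i by simp [← Pi.single_smul'],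
        mulVec_smul, map_smul, hno, smul_zero]
    have := LinearMap.congr_fun h0 (ax l)
    simp [hφ, Ne.symm hlm] at this
  obtain ⟨j', hj'⟩ := hxm j
  obtain ⟨c, hc⟩ := Submodule.mem_span_singleton.1 hj'
  rw [hxy] at hc
  set κ := φ ((g : Matrix ι ι F) *ᵥ ax j) with hκ
  have hzi : ∀ i, κ * z i = c * (ax j') i - (ax j) i := fun i => by
    have := congrFun hc i
    simp only [Pi.smul_apply, Pi.add_apply, smul_eq_mul] at this
    linear_combination -this
  have hjj : j' ≠ j := by
    intro e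
    subst e
    have hsupp : ∀ i, i ≠ j' → z i = 0 := fun i hi => by
      have := hzi i
      rw [Pi.single_eq_of_ne hi, mul_zero, sub_zero] at this
      exact (mul_eq_zero.1 this).resolve_left hj
    have h0 : z j' = 0 := by
      rw [sf, Finset.sum_eq_single j' (fun i _ hi => by rw [hsupp i hi, zero_mul]) (by simp)] at hzz
      simpa using hzz
    have : z = 0 := funext fun i => by
      by_cases hi : i = j'
      · rw [hi, h0]; rfl
      · exact hsupp i hi
    have h1 := congrArg (fun w => ((g : Matrix ι ι F) *ᵥ w) l) this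
    rw [hz] at h1
    simp [mulVec_inv_mulVec, hy, hlm] at h1
  have hzsupp : ∀ i, i ≠ j → i ≠ j' → z i = 0 := fun i h1 h2 => by
    have := hzi i
    rw [Pi.single_eq_of_ne h1, Pi.single_eq_of_ne h2, mul_zero, sub_zero] at this
    exact (mul_eq_zero.1 this).resolve_left hj
  have hzj : z j ≠ 0 := fun e => by
    have := hzi j
    rw [e, mul_zero, Pi.single_eq_same, Pi.single_eq_of_ne (Ne.symm hjj), mul_zero, zero_sub] at this
    exact one_ne_zero (neg_eq_zero.1 this.symm)
  have hzj' : z j' ≠ 0 := fun e => by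
    have := hzi j'
    rw [e, mul_zero, Pi.single_eq_same, Pi.single_eq_of_ne hjj, mul_one, sub_zero] at this
    have h3 := congrArg (fun w => w) hc
    rw [← this, zero_smul] at h3
    exact mulVec_ne_zero (g⁻¹ * S0 * g) (ax_ne_zero j) ((hxy _).trans h3.symm)
  have hza : z a = 0 := by
    rw [hz, inv_apply_eq (hO.iso g hg), ← hv, hy, hs]
    simp [sf, Finset.sum_sub_distrib, Pi.single_apply, neg_mul, sub_mul, hlm, Ne.symm hlm]
    field_simp
    linear_combination -hN
  have haj : a ≠ j := fun e => hzj (e ▸ hza)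
  have haj' : a ≠ j' := fun e => hzj' (e ▸ hza)
  set cb : ι → F := fun p => σ (((g : Matrix ι ι F) *ᵥ ax j) p) * v p with hcb
  set cc : ι → F := fun p => σ (((g : Matrix ι ι F) *ᵥ ax j') p) * v p with hcc
  set K := -(σ (z j) / σ (z j')) with hK
  have hgz : (g : Matrix ι ι F) *ᵥ z = y := by rw [hz, mulVec_inv_mulVec]
  have hzdec : z = z j • ax j + z j' • ax j' := funext fun i => by
    by_cases h1 : i = j
    · subst h1; simp [Ne.symm hjj]
    by_cases h2 : i = j'
    · subst h2; simp [hjj]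
    · simp [h1, h2, hzsupp i h1 h2]
  have hout : ∀ p, p ≠ l → p ≠ m → cc p = K * cb p := by
    intro p hpl hpm
    have h1 := congrArg σ (congrFun hgz p)
    rw [hzdec, mulVec_add, mulVec_smul, mulVec_smul, hy] at h1
    simp [hpl, hpm] at h1
    rw [hcc, hcb, hK]
    have : σ (z j') ≠ 0 := by simpa using hzj'
    field_simp
    simp only [col_apply] at h1 ⊢
    linear_combination (v p) * h1
  have hsum : ∀ b, b ≠ a → ∑ p, σ (((g : Matrix ι ι F) *ᵥ ax b) p) * v p = 0 := by
    intro b hb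
    have h := hO.iso g hg (ax a) (ax b)
    rw [sf_ax_right, Pi.single_eq_of_ne hb] at h
    rw [← h, sf]
    exact Finset.sum_congr rfl fun p _ => mul_comm _ _
  set Bad := ({l, m} : Finset ι) ∪ (Finset.univ.filter fun i => v i = 0) ∪
    (Finset.univ.filter fun i => ((g : Matrix ι ι F) *ᵥ ax j) i = 0) with hBad
  have hBadc : Bad.card ≤ 4 := by
    have h1 := Finset.card_union_le (({l, m} : Finset ι) ∪ (Finset.univ.filter fun i => v i = 0))
      (Finset.univ.filter fun i => ((g : Matrix ι ι F) *ᵥ ax j) i = 0)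
    have h2 := Finset.card_union_le ({l, m} : Finset ι) (Finset.univ.filter fun i => v i = 0)
    have := hzv
    have := hz1 j
    have := Finset.card_le_two (a := l) (b := m)
    rw [← hBad] at h1
    omega
  have hgood : ∀ i ∈ Badᶜ, i ≠ l ∧ i ≠ m ∧ v i ≠ 0 ∧ ((g : Matrix ι ι F) *ᵥ ax j) i ≠ 0 := by
    intro i hi
    have := Finset.mem_compl.1 hi
    simp only [hBad, Finset.mem_union, Finset.mem_insert, Finset.mem_singleton, Finset.mem_filter,
      Finset.mem_univ, true_and, not_or] at this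
    exact ⟨this.1.1.1, this.1.1.2, this.1.2, this.2⟩
  have hcb0 : ∀ i ∈ Badᶜ, cb i ≠ 0 := fun i hi =>
    mul_ne_zero (by simpa using (hgood i hi).2.2.2) (hgood i hi).2.2.1
  set N : ι → F := fun p => v p * σ (v p) with hNd
  -- a torus solution whose conjugate is not monomial
  have finish : ∀ t : ι → Fˣ, (∀ i, Cir σ (t i : F)) → ∏ i, t i = 1 → t l = 1 → t m = 1 →
      ∑ p, (t p : F) * cb p = 0 → ¬ IsMono (g⁻¹ * dg t * g) → False := by
    intro t htc htp htl htm hts hnm
    set x := g⁻¹ * dg t * g with hx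
    have hxM : x ∈ M := M.mul_mem (M.mul_mem (M.inv_mem hg) (hO.dg_mem htc htp)) hg
    have hcol : (x : Matrix ι ι F) *ᵥ ax a =
        ((g⁻¹ : GL ι F) : Matrix ι ι F) *ᵥ ((dg t : Matrix ι ι F) *ᵥ v) := by
      rw [hx, Units.val_mul, Units.val_mul, ← mulVec_mulVec, ← mulVec_mulVec]
    have hcoord : ∀ b, ((x : Matrix ι ι F) *ᵥ ax a) b =
        ∑ p, (t p : F) * (σ (((g : Matrix ι ι F) *ᵥ ax b) p) * v p) := by
      intro b
      rw [hcol, inv_apply_eq (hO.iso g hg), sf]
      refine Finset.sum_congr rfl fun p _ => ?_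
      rw [dg_mulVec]; ring
    refine one_zero hO hn hU hxM hnm (a := a) (Ne.symm hjj) (by rw [hcoord]; exact hts) ?_
    rw [hcoord]
    have e1 : ∀ p, (t p : F) * cc p = K * ((t p : F) * cb p) + (t l : F) * (cc p - K * cb p) := by
      intro p
      rcases eq_or_ne p l with rfl | hpl
      · ring
      rcases eq_or_ne p m with rfl | hpm
      · rw [htm, htl]; ring
      · rw [hout p hpl hpm]; ring
    show ∑ p, (t p : F) * cc p = 0
    rw [Finset.sum_congr rfl fun p _ => e1 p, Finset.sum_add_distrib, ← Finset.mul_sum, hts, mul_zero,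
      zero_add, ← Finset.mul_sum, Finset.sum_sub_distrib, ← Finset.mul_sum, hsum j' (Ne.symm haj'),
      hsum j (Ne.symm haj)]
    ring
  have hsum0 : ∑ p, cb p = 0 := hsum j (Ne.symm haj)
  have hσN : ∀ p, σ (N p) = N p := fun p => norm_fixed hO.std.card hO.std.frob _
  -- unequal weights of equal norm
  have pair : ∀ k k', k ≠ k' → k ∈ Badᶜ → k' ∈ Badᶜ → cb k * σ (cb k) = cb k' * σ (cb k') →
      cb k = cb k' := by
    intro k k' hkk hk hk' hN
    by_contra hne
    obtain ⟨gl, glm, -, -⟩ := hgood k hk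
    obtain ⟨gl', glm', -, -⟩ := hgood k' hk'
    have hk0 := hcb0 k hk
    have hk0' := hcb0 k' hk'
    set ε : Fˣ := Units.mk0 (cb k' / cb k) (div_ne_zero hk0' hk0) with hεd
    have hεc : Cir σ (ε : F) := by
      show cb k' / cb k * σ (cb k' / cb k) = 1
      have : σ (cb k) ≠ 0 := by simpa using hk0
      rw [map_div₀, div_mul_div_comm, ← hN, div_self (mul_ne_zero hk0 this)]
    have hε1 : (ε : F) ≠ 1 := fun e => hne (by
      simp only [hεd, Units.val_mk0] at e; field_simp at e; exact e.symm)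
    have hεi : Cir σ ((ε⁻¹ : Fˣ) : F) := by rw [Units.val_inv_eq_inv_val]; exact hεc.inv
    refine finish (torPair k k' ε) (fun r => ?_) (prod_torPair hkk ε)
      (by simp [torPair, Ne.symm gl, Ne.symm gl']) (by simp [torPair, Ne.symm glm, Ne.symm glm'])
      ?_ (conj_torPair_nonmono hO hn hU hg hgm hkk hε1)
    · unfold torPair; split_ifs; exacts [hεc, hεi, cir_one σ]
    · have e : ∑ p, (torPair k k' ε p : F) * cb p - ∑ p, cb p = 0 := by
        rw [← Finset.sum_sub_distrib, Fintype.sum_eq_add k k' hkk fun r hr => by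
          simp [torPair, hr.1, hr.2]]
        simp [torPair, Ne.symm hkk, hεd]
        field_simp
        ring
      rwa [hsum0, sub_zero] at e
  obtain ⟨k1, hk1, k2, hk2, hk12, hkN⟩ := exists_equal_norms hO (v := cb) (S := Badᶜ) hcb0 (by
    rw [Finset.card_compl]; omega)
  obtain ⟨k3, hk3, k4, hk4, hk34, hkN'⟩ := exists_equal_norms hO (v := cb) (S := Badᶜ \ {k1, k2})
    (fun i hi => hcb0 i (Finset.mem_sdiff.1 hi).1) (by
      have h5 := Finset.le_card_sdiff ({k1, k2} : Finset ι) Badᶜ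
      have := Finset.card_le_two (a := k1) (b := k2)
      rw [Finset.card_compl] at h5
      omega)
  simp only [Finset.mem_sdiff, Finset.mem_insert, Finset.mem_singleton, not_or] at hk3 hk4
  have hc12 := pair k1 k2 hk12 hk1 hk2 hkN
  have hc34 := pair k3 k4 hk34 hk3.1 hk4.1 hkN'
  obtain ⟨gl, glm, gv, -⟩ := hgood k1 hk1
  obtain ⟨gl2, glm2, gv2, -⟩ := hgood k2 hk2
  obtain ⟨gl3, glm3, gv3, -⟩ := hgood k3 hk3.1
  obtain ⟨gl4, glm4, gv4, -⟩ := hgood k4 hk4.1
  set U := N k1 + N k2 with hU'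
  set V := N k3 + N k4 with hV'
  obtain ⟨ε0, hεc, hε1, hεsum⟩ : ∃ ε : F, Cir σ ε ∧ ε ≠ 1 ∧
      1 + ((ε - 1) * U + (ε⁻¹ - 1) * V) ≠ 0 := by
    by_contra hno
    push Not at hno
    obtain ⟨z, hz, hz2⟩ := exists_cir_sq_ne_one hO.std.card hO.std.frob
    have hz1 : z ≠ 1 := fun e => hz2 (by rw [e, one_pow])
    have hz0 := hz.ne_zero
    have hzi : z⁻¹ ≠ 1 := fun e => hz1 (inv_eq_one.1 e)
    have e1 := hno z hz hz1
    have e2 := hno z⁻¹ hz.inv hzi
    rw [inv_inv] at e2
    have hzz : z - z⁻¹ ≠ 0 := fun e => hz2 (by field_simp at e; linear_combination e)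
    have hUV : U = V := by
      refine mul_left_cancel₀ hzz ?_
      linear_combination e1 - e2
    have key : ∀ w, Cir σ w → w ≠ 1 → U * (w + w⁻¹) = 1 := fun w hw hw1 => by
      have := hno w hw hw1
      rw [← hUV] at this
      linear_combination this + (-1 + U) * h2
    have hU0 : U ≠ 0 := fun e => by
      have := key z hz hz1
      rw [e, zero_mul] at this
      exact zero_ne_one this
    by_cases hq2 : q = 2
    · have hone : ∀ p, v p ≠ 0 → N p = 1 := fun p hp => by
        have h0 : N p ≠ 0 := mul_ne_zero hp (by simpa using hp)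
        have h1 := hσN p
        rw [hO.std.frob, hq2] at h1
        exact mul_left_cancel₀ h0 (by linear_combination h1)
      exact hU0 (by rw [hU', hone k1 gv, hone k2 gv2]; linear_combination h2)
    -- more norm-one elements than roots
    set C1 := (Finset.univ.filter fun z : F => Cir σ z).erase 1 with hC1
    have hsub : C1 ⊆ {z, z⁻¹} := fun w hw => by
      obtain ⟨hw1, hwc⟩ := Finset.mem_erase.1 hw
      have hwc : Cir σ w := (Finset.mem_filter.1 hwc).2
      have e : w + w⁻¹ = z + z⁻¹ := mul_left_cancel₀ hU0 ((key w hwc hw1).trans (key z hz hz1).symm)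
      have hw0 := hwc.ne_zero
      rw [Finset.mem_insert, Finset.mem_singleton]
      rcases mul_eq_zero.1 (show (w - z) * (w - z⁻¹) = 0 by
        field_simp at e ⊢; linear_combination e) with h | h
      · exact Or.inl (sub_eq_zero.1 h)
      · exact Or.inr (sub_eq_zero.1 h)
    have h5 := (Finset.card_le_card hsub).trans Finset.card_le_two
    rw [hC1, Finset.card_erase_of_mem (by simp [cir_one]), card_cir hO.std.card hO.std.frob] at h5
    have := hO.std.two_le
    omega
  set ε : Fˣ := Units.mk0 ε0 hεc.ne_zero with hεd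
  have n13 : k1 ≠ k3 := Ne.symm hk3.2.1
  have n14 : k1 ≠ k4 := Ne.symm hk4.2.1
  have n23 : k2 ≠ k3 := Ne.symm hk3.2.2
  have n24 : k2 ≠ k4 := Ne.symm hk4.2.2
  set t : ι → Fˣ := fun r => torPair k1 k3 ε r * torPair k2 k4 ε r with ht
  have tv : t k1 = ε ∧ t k2 = ε ∧ t k3 = ε⁻¹ ∧ t k4 = ε⁻¹ := by
    simp [ht, torPair, hk12, Ne.symm hk12, n13, Ne.symm n13, n14, Ne.symm n14, n23, Ne.symm n23, n24,
      Ne.symm n24, hk34, Ne.symm hk34]
  have t1 : ∀ r, r ≠ k1 → r ≠ k2 → r ≠ k3 → r ≠ k4 → t r = 1 := fun r a b c d => by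
    simp [ht, torPair, a, b, c, d]
  have hfour : ∀ f : ι → F, ∑ r, ((t r : F) - 1) * f r =
      (ε0 - 1) * (f k1 + f k2) + (ε0⁻¹ - 1) * (f k3 + f k4) := fun f => by
    rw [← Finset.sum_subset (Finset.subset_univ ({k1, k2, k3, k4} : Finset ι)) (fun r _ hr => by
        simp only [Finset.mem_insert, Finset.mem_singleton, not_or] at hr
        rw [t1 r hr.1 hr.2.1 hr.2.2.1 hr.2.2.2]; simp),
      Finset.sum_insert (by simp [hk12, n13, n14]), Finset.sum_insert (by simp [n23, n24]),
      Finset.sum_insert (by simp [hk34]), Finset.sum_singleton, tv.1, tv.2.1, tv.2.2.1, tv.2.2.2]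
    simp [hεd]
    ring
  have htl : t l = 1 := t1 l (Ne.symm gl) (Ne.symm gl2) (Ne.symm gl3) (Ne.symm gl4)
  refine finish t (fun r => ?_) (by rw [Finset.prod_mul_distrib, prod_torPair n13, prod_torPair n24, one_mul])
    htl (t1 m (Ne.symm glm) (Ne.symm glm2) (Ne.symm glm3) (Ne.symm glm4)) ?_ fun hm => ?_
  · simp only [ht, Units.val_mul]
    refine Cir.mul ?_ ?_ <;>
    · unfold torPair
      split_ifs
      · exact hεc
      · rw [Units.val_inv_eq_inv_val]; exact hεc.inv
      · exact cir_one σ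
  · have e := hfour cb
    rw [hc12, hc34, show ∀ c : F, c + c = 0 from fun c => by linear_combination c * h2, mul_zero,
      show ∀ c : F, c + c = 0 from fun c => by linear_combination c * h2, mul_zero, add_zero] at e
    simp only [sub_mul, one_mul, Finset.sum_sub_distrib, hsum0, sub_zero] at e
    exact e
  · obtain ⟨d, hd⟩ := hm a
    obtain ⟨γ, hγ⟩ := Submodule.mem_span_singleton.1 hd
    have hcol : ((g⁻¹ * dg t * g : GL ι F) : Matrix ι ι F) *ᵥ ax a =
        ((g⁻¹ : GL ι F) : Matrix ι ι F) *ᵥ ((dg t : Matrix ι ι F) *ᵥ v) := by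
      rw [Units.val_mul, Units.val_mul, ← mulVec_mulVec, ← mulVec_mulVec]
    rcases eq_or_ne d a with rfl | hda
    · have h1 : (dg t : Matrix ι ι F) *ᵥ v = γ • v := by
        rw [hv, ← mulVec_smul, hγ, hcol, mulVec_inv_mulVec]
      have e1 := congrFun h1 l
      have e2 := congrFun h1 k1
      rw [dg_mulVec, Pi.smul_apply, smul_eq_mul] at e1 e2
      rw [htl, Units.val_one] at e1
      rw [← mul_right_cancel₀ hvl e1, tv.1] at e2
      exact hε1 (mul_right_cancel₀ gv e2)
    · refine hεsum ?_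
      have hv1 : ∑ p, N p = 1 := by
        rw [← sf_ax_self (σ := σ) a, ← hO.iso g hg]; rfl
      have h0 := congrFun hγ a
      rw [Pi.smul_apply, Pi.single_eq_of_ne (Ne.symm hda), smul_zero, hcol,
        inv_apply_eq (hO.iso g hg)] at h0
      rw [← hfour N]
      simp only [sub_mul, one_mul, Finset.sum_sub_distrib, hv1, add_sub_cancel]
      refine Eq.trans (Finset.sum_congr rfl fun p _ => ?_) h0.symm
      rw [dg_mulVec]
      simp only [hNd, hv]
      ring

end CfsgLib.UnitMono91
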