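import Mathlib
import Cfsg.Agent.UnitMono91.Even
import Cfsg.Agent.UnitMono91.Spread

/-!
In a proper overgroup of the special monomial unitary group of dimension ten or twelve all isotropic
vectors are centres.
-/

set_option autoImplicit false

namespace CfsgLib.UnitMono91

open Matrix CfsgLib.UnitMono CfsgLib.TransvGL CfsgLib.MonoBasics CfsgLib.UnitCentres CfsgLib.PseudoRefl
  CfsgLib.CircleSums

variable {ι : Type} [Fintype ι] [DecidableEq ι] {F : Type*} [Field F] [Fintype F]
variable {q : ℕ} {σ : F ≃+* F} {M : Subgroup (GL ι F)}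

local notation "ax" i:max => (Pi.single i (1 : F) : ι → F)

/-- Some non-monomial element fixes an axis. -/
theorem exists_fix (hO : Over q σ M) (hn : Fintype.card ι = 10 ∨ Fintype.card ι = 12) {g₀ : GL ι F}
    (hg₀ : g₀ ∈ M) (hgm₀ : ¬ IsMono g₀) :
    ∃ h ∈ M, ¬ IsMono h ∧ ∃ a, (h : Matrix ι ι F) *ᵥ ax a ∈ Submodule.span F {ax a} := by
  classical
  by_contra hno
  push Not at hno
  have hU : ∀ h : GL ι F, h ∈ M → ∀ a : ι,
      (h : Matrix ι ι F) *ᵥ ax a ∈ Submodule.span F {ax a} → IsMono h := fun h hh a hab =>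
    by_contra fun hm => hno h hh hm a hab
  have hn10 : 10 ≤ Fintype.card ι := by omega
  have hS := hO.std
  have h2le := hS.two_le
  by_cases hsmall : (2 : F) = 0 ∧ q ≤ 4
  · exact case_even hO hn10 hU hsmall.1 hsmall.2 hg₀ hgm₀
  obtain ⟨g, hg, hgm, a, k, hk⟩ :
      ∃ g ∈ M, ¬ IsMono g ∧ ∃ a k, ((g : Matrix ι ι F) *ᵥ ax a) k = 0 := by
    by_contra hnz
    push Not at hnz
    have hfull : ∀ g ∈ M, ¬ IsMono g → ∀ a k, ((g : Matrix ι ι F) *ᵥ ax a) k ≠ 0 := hnz
    by_cases h2 : (2 : F) = 0
    · have h5 : 5 ≤ q := Nat.lt_of_not_le fun h => hsmall ⟨h2, h⟩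
      obtain ⟨h, hh⟩ := even_q hS h2
      have h8 : 8 ≤ q := by
        obtain ⟨p, hp⟩ := CharP.exists F
        obtain ⟨j, hpr, hj⟩ := FiniteField.card F p
        have hp2 : p = 2 := (Nat.prime_dvd_prime_iff_eq hpr Nat.prime_two).1
          ((CharP.cast_eq_zero_iff F p 2).1 (by exact_mod_cast h2))
        subst hp2
        by_contra hlt
        push Not at hlt
        rw [hS.card] at hj
        have hd : q ∣ 2 ^ (j : ℕ) := by rw [← hj]; exact dvd_pow_self q (by norm_num)
        obtain ⟨i, -, rfl⟩ := (Nat.dvd_prime_pow Nat.prime_two).1 hd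
        rcases Nat.lt_or_ge i 3 with hi | hi
        · interval_cases i <;> omega
        · have := Nat.pow_le_pow_right (show 1 ≤ 2 by norm_num) hi
          omega
      rcases hn with h10 | h12
      · exact ten_absurd hO hn10 hU hfull h10 (Or.inl ⟨h2, h8⟩) hg₀ hgm₀
      · exact twelve_absurd hO hn10 hU h12 (by omega) hfull hg₀ hgm₀
    · obtain ⟨h, hh⟩ := odd_q hS h2
      by_cases h9 : q ≤ 9
      · exact small_odd hO hn10 hU hfull h2 h9 hg₀ hgm₀
      rcases hn with h10 | h12
      · exact ten_absurd hO hn10 hU hfull h10 (Or.inr (by omega)) hg₀ hgm₀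
      · exact twelve_absurd hO hn10 hU h12 (by omega) hfull hg₀ hgm₀
  by_cases hall : ∀ z : F, Cir σ z → z ^ Fintype.card ι = 1
  · have hq : q + 1 ≤ Fintype.card ι := by
      rw [← card_cir hS.card hS.frob]
      refine (Finset.card_le_card (t := (Polynomial.nthRoots (Fintype.card ι) (1 : F)).toFinset)
        fun z hz => ?_).trans
        ((Multiset.toFinset_card_le _).trans (Polynomial.card_nthRoots _ _))
      rw [Multiset.mem_toFinset, Polynomial.mem_nthRoots (by omega)]
      exact hall z (Finset.mem_filter.1 hz).2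
    by_cases h2 : (2 : F) = 0
    · obtain ⟨p, hp⟩ := CharP.exists F
      obtain ⟨j, hpr, hj⟩ := FiniteField.card F p
      have hp2 : p = 2 := (Nat.prime_dvd_prime_iff_eq hpr Nat.prime_two).1
        ((CharP.cast_eq_zero_iff F p 2).1 (by exact_mod_cast h2))
      subst hp2
      rw [hS.card] at hj
      have hd : q ∣ 2 ^ (j : ℕ) := by rw [← hj]; exact dvd_pow_self q (by norm_num)
      obtain ⟨i, -, rfl⟩ := (Nat.dvd_prime_pow Nat.prime_two).1 hd
      obtain ⟨z, hz, hz2⟩ := exists_cir_sq_ne_one hS.card hS.frob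
      have hzq := (cir_iff hS).1 hz
      have hg1 : z ^ Nat.gcd (Fintype.card ι) (2 ^ i + 1) = 1 := pow_gcd_eq_one.2 ⟨hall z hz, hzq⟩
      have hi : i ≤ 3 := by
        by_contra h
        have := Nat.pow_le_pow_right (show 1 ≤ 2 by norm_num) (show 4 ≤ i by omega)
        omega
      have h4 : 4 < 2 ^ i := Nat.lt_of_not_le fun h => hsmall ⟨h2, h⟩
      have hi3 : i = 3 := by interval_cases i <;> omega
      subst hi3
      rcases hn with h10 | h12
      · rw [h10] at hg1
        rw [show Nat.gcd 10 (2 ^ 3 + 1) = 1 by decide, pow_one] at hg1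
        exact hz2 (by rw [hg1, one_pow])
      · rw [h12] at hg1
        rw [show Nat.gcd 12 (2 ^ 3 + 1) = 3 by decide] at hg1
        obtain ⟨w, hw, hwall⟩ : ∃ w, Cir σ w ∧ w ^ 12 ≠ 1 := by
          by_contra hc
          push Not at hc
          have h9 : ∀ w, Cir σ w → w ^ 3 = 1 := fun w hw => by
            have := pow_gcd_eq_one.2 ⟨hc w hw, (cir_iff hS).1 hw⟩
            rwa [show Nat.gcd 12 (2 ^ 3 + 1) = 3 by decide] at this
          have h10 := (Finset.card_le_card (t := (Polynomial.nthRoots 3 (1 : F)).toFinset)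
            (s := Finset.univ.filter fun z => Cir σ z) fun z hz => by
              rw [Multiset.mem_toFinset, Polynomial.mem_nthRoots (by norm_num)]
              exact h9 z (Finset.mem_filter.1 hz).2).trans
            ((Multiset.toFinset_card_le _).trans (Polynomial.card_nthRoots _ _))
          rw [card_cir hS.card hS.frob] at h10
          omega
        exact hwall (h12 ▸ hall w hw)
    · exact case_odd hO hn10 hU h2 hq hg hgm hk
  · push Not at hall
    obtain ⟨z, hz, hzn⟩ := hall
    exact case_scalar hO hn10 hU (ε := Units.mk0 z hz.ne_zero) hz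
      (fun e => hzn (by simpa using congrArg Units.val e)) hg hgm hk

/-- All isotropic vectors are centres. -/
theorem all_centres (hO : Over q σ M) (hn : Fintype.card ι = 10 ∨ Fintype.card ι = 12) {g₀ : GL ι F}
    (hg₀ : g₀ ∈ M) (hnm : ¬ IsMono g₀) : ∀ y, sf σ y y = 0 → Centre hO.std.isUnitary M y := by
  have hn10 : 10 ≤ Fintype.card ι := by omega
  obtain ⟨h, hh, hhm, a, ha⟩ := exists_fix hO hn hg₀ hnm
  obtain ⟨c, hc⟩ := Submodule.mem_span_singleton.1 ha
  obtain ⟨w, hw, hwa, hw0, hwq⟩ := exists_centre hO hn10 hh hhm hc.symm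
  by_cases hq : q = 2
  · obtain ⟨T, hT4, hT⟩ := hwq hq
    exact all_isotropic_two hO hq hn10 hw hT4 hT
  · have hq3 : 3 ≤ q := by have := hO.std.two_le; omega
    obtain ⟨l, m, x, y, hlm, hx, hy, hC⟩ := pair_seed hO hn10 hq3 hw hwa hw0
    exact all_isotropic hO hn10
      (fun hij _ _ hx' hy' h0 => pair_all hO hn10 hlm hx hy hC hij hx' hy' h0) hq3

end CfsgLib.UnitMono91
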